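import Cfsg.Agent.Lib.H98.BrLeoD

/-!
# Brauer–Leonard: Sylow subgroups with `C(x) = C(P)`
-/

set_option autoImplicit false
open Cfsg Representation
open scoped ComplexConjugate

namespace H98.BrLeo

open H18.CharBasic H18.CharOrtho H18.CharInd H18.CharQuot

universe u v

theorem mem_of_coprime {G : Type u} [Group G] {P : Subgroup G} {r m : ℕ} (h : Nat.Coprime r m)
    {w : G} (h1 : w ^ r ∈ P) (h2 : w ^ m = 1) : w ∈ P := by
  have h3 : (r : ℤ) * Nat.gcdA r m + (m : ℤ) * Nat.gcdB r m = 1 := by
    have := Nat.gcd_eq_gcd_ab r m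
    rw [h.gcd_eq_one] at this
    exact_mod_cast this.symm
  have h4 : w = (w ^ r) ^ (Nat.gcdA r m) * (w ^ m) ^ (Nat.gcdB r m) := by
    rw [← zpow_natCast, ← zpow_natCast, ← zpow_mul, ← zpow_mul, ← zpow_add, h3, zpow_one]
  rw [h4, h2, one_zpow, mul_one]
  exact P.zpow_mem h1 _

theorem data_of_sylow {G : Type u} [Group G] [Finite G] (p : ℕ) [Fact p.Prime] (P : Sylow p G)
    (hstar : ∀ x ∈ (P : Subgroup G), x ≠ 1 → Subgroup.centralizer ({x} : Set G) =
      Subgroup.centralizer ((P : Subgroup G) : Set G)) :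
    Data (P : Subgroup G) (Subgroup.centralizer ((P : Subgroup G) : Set G))
      (Subgroup.normalizer ((P : Subgroup G) : Set G))
      ((P : Subgroup G).relIndex (Subgroup.centralizer ((P : Subgroup G) : Set G))) := by
  set C := Subgroup.centralizer ((P : Subgroup G) : Set G) with hCdef
  set r := (P : Subgroup G).relIndex C with hr
  have hab : ∀ x ∈ (P : Subgroup G), ∀ y ∈ (P : Subgroup G), x * y = y * x := by
    intro x hx y hy
    by_cases h1 : x = 1
    · rw [h1]; simp
    · have h2 : x ∈ Subgroup.centralizer ({x} : Set G) := by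
        rw [Subgroup.mem_centralizer_singleton_iff]
      rw [hstar x hx h1] at h2
      exact (Subgroup.mem_centralizer_iff.mp h2 y hy).symm
  have hPC : (P : Subgroup G) ≤ C := by
    intro x hx
    rw [hCdef, Subgroup.mem_centralizer_iff]
    intro y hy
    exact hab y hy x hx
  have hcen : ∀ x ∈ (P : Subgroup G), ∀ c ∈ C, x * c = c * x := by
    intro x hx c hc
    exact Subgroup.mem_centralizer_iff.mp hc x hx
  have hC : ∀ x ∈ (P : Subgroup G), x ≠ 1 → ∀ g : G, g * x = x * g → g ∈ C := by
    intro x hx h1 g hg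
    have h2 : g ∈ Subgroup.centralizer ({x} : Set G) :=
      Subgroup.mem_centralizer_singleton_iff.mpr hg
    rwa [hstar x hx h1] at h2
  have hcard : Nat.card C = r * Nat.card P := by
    have h1 := Subgroup.card_mul_index ((P : Subgroup G).subgroupOf C)
    have h2 : Nat.card ((P : Subgroup G).subgroupOf C) = Nat.card P :=
      Nat.card_congr (Subgroup.subgroupOfEquivOfLe hPC).toEquiv
    rw [h2] at h1
    rw [← h1, mul_comm]
    rfl
  have hcop : Nat.Coprime r (Nat.card P) := by
    obtain ⟨n, hn⟩ := IsPGroup.iff_card.mp P.isPGroup'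
    have h1 : r ∣ (P : Subgroup G).index := by
      rw [hr]
      exact Subgroup.relIndex_dvd_index_of_le hPC
    have h2 : ¬ p ∣ r := fun h => P.not_dvd_index (h.trans h1)
    rw [show Nat.card P = p ^ n from hn]
    exact Nat.Coprime.pow_right n (((Nat.Prime.coprime_iff_not_dvd (Fact.out)).mpr h2).symm)
  have hnorm : ((P : Subgroup G).subgroupOf C).Normal := by
    refine ⟨fun x hx c => ?_⟩
    rw [Subgroup.mem_subgroupOf] at hx ⊢
    have h1 := hcen x hx c c.2
    have : ((c * x * c⁻¹ : C) : G) = x := by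
      push_cast
      rw [← h1, mul_inv_cancel_right]
    rw [this]; exact hx
  have hpow : ∀ c ∈ C, c ^ r ∈ (P : Subgroup G) := by
    intro c hc
    have h1 := Subgroup.pow_index_mem ((P : Subgroup G).subgroupOf C) (⟨c, hc⟩ : C)
    rw [Subgroup.mem_subgroupOf] at h1
    exact h1
  have hhom : ∀ c ∈ C, ∀ d ∈ C, (c * d) ^ r = c ^ r * d ^ r := by
    let H := (P : Subgroup G).subgroupOf C
    letI : CommGroup H := { (inferInstance : Group H) with
      mul_comm := fun a b => by
        apply Subtype.ext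
        apply Subtype.ext
        exact hab a.1 (Subgroup.mem_subgroupOf.mp a.2) b.1 (Subgroup.mem_subgroupOf.mp b.2) }
    have hfi : H.FiniteIndex := inferInstance
    have key : ∀ g : C, ∀ (k : ℕ) (g₀ : C), g₀⁻¹ * g ^ k * g₀ ∈ H → g₀⁻¹ * g ^ k * g₀ = g ^ k := by
      intro g k g₀ h
      rw [Subgroup.mem_subgroupOf] at h
      have h1 := hcen _ h g₀ g₀.2
      apply Subtype.ext
      have h2 : ((g₀⁻¹ * g ^ k * g₀ : C) : G) * g₀ = g₀ * ((g₀⁻¹ * g ^ k * g₀ : C) : G) := h1
      have h3 : (g₀ : G) * ((g₀⁻¹ * g ^ k * g₀ : C) : G) = ((g ^ k : C) : G) * g₀ := by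
        push_cast; group
      rw [h3] at h2
      exact mul_right_cancel h2
    have htr : ∀ g : C, ((MonoidHom.transfer (MonoidHom.id H) g : H) : C) = g ^ H.index := by
      intro g
      rw [MonoidHom.transfer_eq_pow (MonoidHom.id H) g (key g)]
      rfl
    intro c hc d hd
    have h1 := htr (⟨c, hc⟩ * ⟨d, hd⟩)
    rw [map_mul, Subgroup.coe_mul, htr, htr] at h1
    exact (congrArg (fun z : C => (z : G)) h1).symm
  refine ⟨hPC, Subgroup.centralizer_le_normalizer _, ?_, ?_, hcen, hC, hcop, hpow, hhom, ?_, hcard⟩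
  · intro n hn c hc
    rw [hCdef, Subgroup.mem_centralizer_iff] at hc ⊢
    intro y hy
    have h1 := (Subgroup.mem_normalizer_iff.mp hn y).mp hy
    have h2 := hc _ h1
    calc y * (n⁻¹ * c * n) = n⁻¹ * ((n * y * n⁻¹) * c) * n := by group
      _ = n⁻¹ * (c * (n * y * n⁻¹)) * n := by rw [h2]
      _ = n⁻¹ * c * n * y := by group
  · intro n hn x hx
    have h1 := (Subgroup.mem_normalizer_iff.mp (Subgroup.inv_mem _ hn) x).mp hx
    simpa using h1
  · intro g hg c hc hc1 hgc
    by_contra h2
    apply hg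
    have hx1 := hpow c hc
    have hx2 := hpow _ hgc
    have hconj : (g⁻¹ * c * g) ^ r = g⁻¹ * c ^ r * g := by
      have := conj_pow (i := r) (a := g⁻¹) (b := c)
      rwa [inv_inv] at this
    -- conjugating C
    have hCC : ∀ z ∈ C, g⁻¹ * z * g ∈ C := by
      intro z hz
      apply hC _ hx2 h2
      rw [hconj]
      have h3 := hcen _ hx1 z hz
      calc g⁻¹ * z * g * (g⁻¹ * c ^ r * g) = g⁻¹ * (z * c ^ r) * g := by group
        _ = g⁻¹ * (c ^ r * z) * g := by rw [h3]
        _ = _ := by group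
    have hPP : ∀ y ∈ (P : Subgroup G), g⁻¹ * y * g ∈ (P : Subgroup G) := by
      intro y hy
      have h3 := hCC y (hPC hy)
      apply mem_of_coprime hcop (hpow _ h3)
      have h4 : y ^ (Nat.card P) = 1 := by
        have := pow_card_eq_one' (x := (⟨y, hy⟩ : (P : Subgroup G)))
        exact congrArg Subtype.val this
      have h5 := conj_pow (i := Nat.card P) (a := g⁻¹) (b := y)
      rw [inv_inv] at h5
      rw [h5, h4]; group
    have hginv : g⁻¹ ∈ Subgroup.normalizer ((P : Subgroup G) : Set G) := by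
      have hmap : (P : Subgroup G).map (MulAut.conj g⁻¹).toMonoidHom ≤ (P : Subgroup G) := by
        rintro _ ⟨y, hy, rfl⟩
        simpa using hPP y hy
      have heq : (P : Subgroup G).map (MulAut.conj g⁻¹).toMonoidHom = (P : Subgroup G) := by
        apply Subgroup.eq_of_le_of_card_ge hmap
        rw [Subgroup.card_map_of_injective (MulAut.conj g⁻¹).injective]
      rw [Subgroup.mem_normalizer_iff]
      intro y
      constructor
      · intro hy
        have := hPP y hy
        simpa using this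
      · intro hy
        rw [← heq] at hy
        obtain ⟨z, hz, hzy⟩ := hy
        have : z = y := (MulAut.conj g⁻¹).injective hzy
        rwa [← this]
    simpa using Subgroup.inv_mem _ hginv

theorem charDegree_eq {G : Type u} [Group G] {χ : G → ℂ} {d : ℕ} (h : χ 1 = d) :
    Cfsg.charDegree χ = d := by
  rw [Cfsg.charDegree, h]
  simp

theorem irr_case {G : Type u} [Group G] [Finite G] (p : ℕ) [Fact p.Prime] (P : Sylow p G)
    (hstar : ∀ x ∈ (P : Subgroup G), x ≠ 1 → Subgroup.centralizer ({x} : Set G) =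
      Subgroup.centralizer ((P : Subgroup G) : Set G))
    {χ : G → ℂ} (hχ : IsIrrCharacter G χ) (h1 : χ ≠ fun _ => 1)
    (hdeg : Cfsg.charDegree χ ^ 2 + 1 < Nat.card P) :
    (∃ K : Subgroup G, K.Normal ∧ K ≠ ⊤ ∧ (P : Subgroup G) ≤ K) ∨
      ((∃ N : Subgroup G, N.Normal ∧ N.index = Nat.card P) ∧ Cfsg.charDegree χ = 1) := by
  classical
  by_cases hno : ∃ K : Subgroup G, K.Normal ∧ K ≠ ⊤ ∧ (P : Subgroup G) ≤ K
  · exact Or.inl hno
  right
  have hno' : ∀ K : Subgroup G, K.Normal → (P : Subgroup G) ≤ K → K = ⊤ := by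
    intro K hK hPK
    by_contra hne
    exact hno ⟨K, hK, hne, hPK⟩
  have D := data_of_sylow p P hstar
  obtain ⟨d, hd0, hd⟩ := exists_degree_pos hχ
  rw [charDegree_eq hd] at hdeg ⊢
  have := Fintype.ofFinite G
  have := Fintype.ofFinite (Subgroup.centralizer ((P : Subgroup G) : Set G))
  have := Fintype.ofFinite (Subgroup.normalizer ((P : Subgroup G) : Set G))
  rcases Nat.lt_or_ge d 2 with h2 | h2
  · have hd1 : d = 1 := by omega
    refine ⟨?_, hd1⟩
    have hχ1 : χ 1 = 1 := by rw [hd, hd1]; simp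
    obtain ⟨lam, hlam⟩ := exists_hom_of_degree_one (isCharacter_of_isIrr hχ) hχ1
    have hlam' : ∀ g, χ g = (lam g : ℂ) := fun g => by
      first
      | exact (congrFun hlam g).symm
      | exact congrFun hlam g
      | exact hlam g
    -- lam is nontrivial on P
    have hP : ∃ x ∈ (P : Subgroup G), lam x ≠ 1 := by
      by_contra hcon
      push Not at hcon
      apply h1
      have h3 := hno' lam.ker inferInstance (fun x hx => hcon x hx)
      funext g
      have h4 : g ∈ lam.ker := by rw [h3]; exact Subgroup.mem_top g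
      rw [hlam' g, MonoidHom.mem_ker.mp h4]
      simp
    obtain ⟨x0, hx0, hx0'⟩ := hP
    obtain ⟨f, hf1, hf2⟩ := D.exists_ext (lam.comp (P : Subgroup G).subtype)
    have hf : f ≠ 1 := by
      rintro rfl
      apply hx0'
      have := hf2 x0 hx0
      exact this.symm
    have hNC : Subgroup.normalizer ((P : Subgroup G) : Set G) ≤
        Subgroup.centralizer ((P : Subgroup G) : Set G) := by
      intro n hn
      apply D.conj_mem_C hf1 hf ⟨n, hn⟩
      apply D.eq_of_P (f := f.comp (D.cj ⟨n, hn⟩).toMonoidHom) (g := f)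
      · intro c hc
        apply hf1
        show (n⁻¹ * (c : G) * n) ^ _ = 1
        have h5 := conj_pow (i := (P : Subgroup G).relIndex
          (Subgroup.centralizer ((P : Subgroup G) : Set G))) (a := n⁻¹) (b := (c : G))
        rw [inv_inv] at h5
        rw [h5, hc]; group
      · exact hf1
      · intro x hx
        have h6 : n⁻¹ * x * n ∈ (P : Subgroup G) := D.hNP n hn x hx
        have h7 := hf2 _ h6
        have h8 := hf2 x hx
        show f (D.cj ⟨n, hn⟩ ⟨x, _⟩) = _
        have h9 : D.cj ⟨n, hn⟩ ⟨x, D.hPC hx⟩ = ⟨n⁻¹ * x * n, D.hPC h6⟩ := rfl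
        rw [h9, h7, h8]
        show lam (n⁻¹ * x * n) = lam x
        rw [map_mul, map_mul, map_inv, mul_comm (lam n)⁻¹, inv_mul_cancel_right]
    refine ⟨(MonoidHom.transferSylow P hNC).ker, inferInstance, ?_⟩
    exact (MonoidHom.ker_transferSylow_isComplement' P hNC).symm.index_eq_card
  · exact (D.main hχ hd h2 hdeg hno').elim

end H98.BrLeo
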