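import Cfsg.Agent.Lib.H4.Exceptional
import Cfsg.Prelude.Def_Blocks

/-!
# Sylow subgroups with `C(x) = C(P)` for all `1 ≠ x ∈ P` : local data and TI isometry
-/

set_option autoImplicit false
open Cfsg Representation
open scoped ComplexConjugate

namespace H98.BrLeo

open H18.CharBasic H18.CharOrtho H18.CharInd H18.CharQuot

universe u v

section general

variable {H : Type u} [Group H] [Fintype H]

theorem deg_ge {φ : H → ℂ} (hφ : IsCharacter H φ) {ι : Type v} (S : Finset ι) (θ : ι → H → ℂ)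
    (hθ : ∀ i ∈ S, IsIrrCharacter H (θ i)) (hinj : ∀ i ∈ S, ∀ j ∈ S, θ i = θ j → i = j) (b : ℕ)
    (hb : ∀ i ∈ S, ∃ k : ℕ, b ≤ k ∧ classInner φ (θ i) = k) (d : ℕ) (hd : φ 1 = d) :
    b * S.card ≤ d := by
  classical
  have := Fintype.ofFinite (IrrCharacter H)
  choose a ha using fun χ : IrrCharacter H => inner_char_natCast hφ (isCharacter_of_isIrr χ.2)
  choose e he0 he using fun χ : IrrCharacter H => exists_degree_pos χ.2
  have h1 : d = ∑ χ : IrrCharacter H, a χ * e χ := by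
    have h2 := congrFun (mem_classFun_expand (isClassFunction_of_isCharacter hφ)) 1
    rw [hd] at h2
    simp only [Finset.sum_apply, Pi.smul_apply, smul_eq_mul, he, ha] at h2
    exact_mod_cast h2
  let F : ι → IrrCharacter H := fun i => if h : i ∈ S then ⟨θ i, hθ i h⟩ else ⟨fun _ => 1, isIrrCharacter_one⟩
  have hF : ∀ i ∈ S, (F i : H → ℂ) = θ i := fun i hi => by simp [F, hi]
  have hFinj : Set.InjOn F S := by
    intro i hi j hj hij
    apply hinj i hi j hj
    rw [← hF i hi, ← hF j hj, hij]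
  calc b * S.card = ∑ i ∈ S, b := by rw [Finset.sum_const, smul_eq_mul, mul_comm]
    _ ≤ ∑ i ∈ S, a (F i) * e (F i) := by
        apply Finset.sum_le_sum
        intro i hi
        obtain ⟨k, hk, hk2⟩ := hb i hi
        have h3 : a (F i) = k := by
          have h4 := ha (F i)
          rw [hF i hi, hk2] at h4
          exact_mod_cast h4.symm
        rw [h3]
        calc b ≤ k := hk
          _ ≤ k * e (F i) := Nat.le_mul_of_pos_right _ (he0 _)
    _ = ∑ χ ∈ S.image F, a χ * e χ := (Finset.sum_image (f := fun χ => a χ * e χ) hFinj).symm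
    _ ≤ ∑ χ : IrrCharacter H, a χ * e χ := Finset.sum_le_sum_of_subset (Finset.subset_univ _)
    _ = d := h1.symm

theorem norm_ge {φ : H → ℂ} (hφ : IsCharacter H φ) {ι : Type v} (S : Finset ι) (θ : ι → H → ℂ)
    (hθ : ∀ i ∈ S, IsIrrCharacter H (θ i)) (hinj : ∀ i ∈ S, ∀ j ∈ S, θ i = θ j → i = j)
    (hb : ∀ i ∈ S, classInner φ (θ i) ≠ 0) (d : ℕ) (hd : classInner φ φ = d) :
    S.card ≤ d := by
  classical
  have := Fintype.ofFinite (IrrCharacter H)
  choose a ha using fun χ : IrrCharacter H => inner_char_natCast hφ (isCharacter_of_isIrr χ.2)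
  have h1 : d = ∑ χ : IrrCharacter H, a χ ^ 2 := by
    have h2 := parseval (g := φ) (isClassFunction_of_isCharacter hφ)
    rw [hd] at h2
    simp only [ha] at h2
    have h3 : (d : ℂ) = ((∑ χ : IrrCharacter H, a χ ^ 2 : ℕ) : ℂ) := by
      rw [h2]
      push_cast
      refine Finset.sum_congr rfl fun χ _ => ?_
      simp [sq]
    exact_mod_cast h3
  let F : ι → IrrCharacter H := fun i => if h : i ∈ S then ⟨θ i, hθ i h⟩ else ⟨fun _ => 1, isIrrCharacter_one⟩
  have hF : ∀ i ∈ S, (F i : H → ℂ) = θ i := fun i hi => by simp [F, hi]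
  have hFinj : Set.InjOn F S := by
    intro i hi j hj hij
    apply hinj i hi j hj
    rw [← hF i hi, ← hF j hj, hij]
  calc S.card = ∑ i ∈ S, 1 := by simp
    _ ≤ ∑ i ∈ S, a (F i) ^ 2 := by
        apply Finset.sum_le_sum
        intro i hi
        have h3 : a (F i) ≠ 0 := by
          intro h4
          apply hb i hi
          rw [← hF i hi, ha, h4, Nat.cast_zero]
        exact Nat.one_le_iff_ne_zero.mpr (pow_ne_zero 2 h3)
    _ = ∑ χ ∈ S.image F, a χ ^ 2 := (Finset.sum_image (f := fun χ => a χ ^ 2) hFinj).symm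
    _ ≤ ∑ χ : IrrCharacter H, a χ ^ 2 := Finset.sum_le_sum_of_subset (Finset.subset_univ _)
    _ = d := h1.symm

end general

/-- the local data -/
structure Data {G : Type u} [Group G] (P C N : Subgroup G) (r : ℕ) : Prop where
  hPC : P ≤ C
  hCN : C ≤ N
  hNC : ∀ n ∈ N, ∀ c ∈ C, n⁻¹ * c * n ∈ C
  hNP : ∀ n ∈ N, ∀ x ∈ P, n⁻¹ * x * n ∈ P
  hcen : ∀ x ∈ P, ∀ c ∈ C, x * c = c * x
  hC : ∀ x ∈ P, x ≠ 1 → ∀ g : G, g * x = x * g → g ∈ C
  hcop : Nat.Coprime r (Nat.card P)
  hpow : ∀ c ∈ C, c ^ r ∈ P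
  hhom : ∀ c ∈ C, ∀ d ∈ C, (c * d) ^ r = c ^ r * d ^ r
  hTI : ∀ g : G, g ∉ N → ∀ c ∈ C, c ^ r ≠ 1 → g⁻¹ * c * g ∈ C → (g⁻¹ * c * g) ^ r = 1
  hcard : Nat.card C = r * Nat.card P

namespace Data

variable {G : Type u} [Group G] [Fintype G] {P C N : Subgroup G} [Fintype C] [Fintype N] {r : ℕ}
  (D : Data P C N r)

/-- conjugation by an element of `N` on `C` -/
def cj (n : N) : C ≃* C where
  toFun c := ⟨(n : G)⁻¹ * c * n, D.hNC n n.2 c c.2⟩
  invFun c := ⟨(n : G) * c * (n : G)⁻¹, by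
    have := D.hNC (n : G)⁻¹ (N.inv_mem n.2) c c.2
    simpa using this⟩
  left_inv c := by ext; simp [mul_assoc]
  right_inv c := by ext; simp [mul_assoc]
  map_mul' a b := by ext; simp [mul_assoc]

@[simp] theorem cj_coe (n : N) (c : C) : ((D.cj n c : C) : G) = (n : G)⁻¹ * c * n := rfl

include D in
theorem mult_conj {φ : G → ℂ} (hφ : IsClassFunction G φ) (n : N) (θ : C → ℂ) :
    classInner (fun c : C => φ c) (fun c => θ (D.cj n c)) = classInner (fun c : C => φ c) θ := by
  have h := classInner_mulEquiv (D.cj n) (φ := fun c : C => φ c) (ψ := θ)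
  rw [← h]
  congr 1
  funext c
  have := hφ c (n : G)⁻¹
  rw [inv_inv] at this
  exact this.symm

/-- TI isometry formula -/
theorem inner_ind {α β : C → ℂ} (hα : ∀ c : C, (c : G) ^ r = 1 → α c = 0)
    (hβ : ∀ c : C, (c : G) ^ r = 1 → β c = 0) :
    classInner (indFun C α) (indFun C β) =
      (Nat.card C : ℂ)⁻¹ * ∑ n : N, classInner α (fun c => β (D.cj n c)) := by
  classical
  rw [frobenius C α (isClassFunction_indFun C β)]
  have key : ∀ c : C, α c * conj (indFun C β c) =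
      (Nat.card C : ℂ)⁻¹ * ∑ n : N, α c * conj (β (D.cj n c)) := by
    intro c
    by_cases hc : (c : G) ^ r = 1
    · simp [hα c hc]
    · rw [indFun_apply]
      have h1 : ∑ x : G, extendByZero C β (x⁻¹ * c * x) = ∑ n : N, β (D.cj n c) := by
        have h2 : ∀ x : G, x ∉ N → extendByZero C β (x⁻¹ * c * x) = 0 := by
          intro x hx
          by_cases hxc : x⁻¹ * c * x ∈ C
          · rw [ext_mem C β hxc]
            exact hβ _ (D.hTI x hx c c.2 hc hxc)
          · exact ext_notMem C β hxc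
        have h3 : ∑ x : G, extendByZero C β (x⁻¹ * c * x) =
            ∑ x ∈ Finset.univ.filter (fun x : G => x ∈ N), extendByZero C β (x⁻¹ * c * x) := by
          rw [Finset.sum_filter]
          refine Finset.sum_congr rfl fun x _ => ?_
          split_ifs with h
          · rfl
          · exact h2 x h
        rw [h3, Finset.sum_subtype (p := fun x => x ∈ N) _ (fun x => by simp)]
        refine Finset.sum_congr rfl fun n _ => ?_
        rw [ext_mem C β (D.hNC n n.2 c c.2)]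
        rfl
      rw [h1, map_mul, map_inv₀, map_natCast, map_sum, Finset.mul_sum, Finset.mul_sum,
        Finset.mul_sum]
      refine Finset.sum_congr rfl fun n _ => ?_
      ring
  rw [classInner]
  simp only [key]
  rw [← Finset.mul_sum, Finset.sum_comm]
  simp only [classInner]
  rw [← Finset.mul_sum, mul_left_comm]

include D in
theorem comm_P : ∀ a b : P, a * b = b * a := fun a b =>
  Subtype.ext (D.hcen a a.2 b (D.hPC b.2))

include D in
theorem split (c : C) : ∃ x ∈ P, ∃ k : C, (k : G) ^ r = 1 ∧ (c : G) = x * k := by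
  have hcop := D.hcop
  have hP0 : 0 < Nat.card P := Nat.card_pos
  -- integers a, b with a r + b |P| = 1
  have h1 : (r : ℤ) * Nat.gcdA r (Nat.card P) + (Nat.card P : ℤ) * Nat.gcdB r (Nat.card P) = 1 := by
    have := Nat.gcd_eq_gcd_ab r (Nat.card P)
    rw [hcop.gcd_eq_one] at this
    exact_mod_cast this.symm
  refine ⟨((c : G) ^ r) ^ (Nat.gcdA r (Nat.card P)), P.zpow_mem (D.hpow c c.2) _,
    (c ^ (Nat.card P)) ^ (Nat.gcdB r (Nat.card P)), ?_, ?_⟩
  · have h2 : (c : G) ^ (Nat.card C) = 1 := by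
      have := pow_card_eq_one' (x := c)
      exact_mod_cast congrArg (fun z : C => (z : G)) this
    rw [D.hcard] at h2
    push_cast
    rw [← zpow_natCast, ← zpow_mul, ← zpow_natCast, ← zpow_mul]
    rw [show ((Nat.card P : ℤ) * (Nat.gcdB r (Nat.card P) * r) : ℤ) =
      ((r * Nat.card P : ℕ) : ℤ) * Nat.gcdB r (Nat.card P) by push_cast; ring, zpow_mul,
      zpow_natCast, h2, one_zpow]
  · push_cast
    rw [← zpow_natCast, ← zpow_natCast, ← zpow_mul, ← zpow_mul, ← zpow_add, h1, zpow_one]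

/-- linear characters of `C` trivial on the complement `K` of `P`, nontrivial -/
def LA (C : Subgroup G) (r : ℕ) : Type u :=
  {f : C →* ℂˣ // (∀ c : C, (c : G) ^ r = 1 → f c = 1) ∧ f ≠ 1}

include D in
theorem eq_of_P {f g : C →* ℂˣ} (hf : ∀ c : C, (c : G) ^ r = 1 → f c = 1)
    (hg : ∀ c : C, (c : G) ^ r = 1 → g c = 1)
    (h : ∀ x (hx : x ∈ P), f ⟨x, D.hPC hx⟩ = g ⟨x, D.hPC hx⟩) : f = g := by
  ext c
  obtain ⟨x, hx, k, hk, hc⟩ := D.split c
  have : c = ⟨x, D.hPC hx⟩ * k := Subtype.ext hc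
  rw [this, map_mul, map_mul, hf k hk, hg k hk, h x hx]

include D in
theorem exists_ext (ω : P →* ℂˣ) : ∃ f : C →* ℂˣ, (∀ c : C, (c : G) ^ r = 1 → f c = 1) ∧
    ∀ x (hx : x ∈ P), f ⟨x, D.hPC hx⟩ = ω ⟨x, hx⟩ := by
  have hcop := D.hcop
  let ρ : C →* P :=
    { toFun := fun c => ⟨(c : G) ^ r, D.hpow c c.2⟩
      map_one' := by ext; simp
      map_mul' := fun a b => by
        ext
        exact D.hhom a a.2 b b.2 }
  let f : C →* ℂˣ := (zpowGroupHom (Nat.gcdA r (Nat.card P))).comp (ω.comp ρ)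
  refine ⟨f, ?_, ?_⟩
  · intro c hc
    have h1 : ρ c = 1 := Subtype.ext hc
    simp [f, h1]
  · intro x hx
    have h1 : (r : ℤ) * Nat.gcdA r (Nat.card P) = 1 - (Nat.card P : ℤ) * Nat.gcdB r (Nat.card P) := by
      have := Nat.gcd_eq_gcd_ab r (Nat.card P)
      rw [hcop.gcd_eq_one] at this
      push_cast at this
      linarith
    have h2 : ρ ⟨x, D.hPC hx⟩ = (⟨x, hx⟩ : P) ^ r := rfl
    show (ω (ρ ⟨x, D.hPC hx⟩)) ^ (Nat.gcdA r (Nat.card P)) = _
    rw [h2, map_pow, ← zpow_natCast, ← zpow_mul, h1, zpow_sub, zpow_one, zpow_mul, zpow_natCast,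
      ← map_pow, pow_card_eq_one', map_one, one_zpow]
    simp

include D in
theorem card_LA : Nat.card (LA C r) + 1 = Nat.card P := by
  classical
  have hcomm := D.comm_P
  have h1 : Nat.card (P →* ℂˣ) = Nat.card P := by
    rw [card_hom_eq_index]
    have : commutator P = ⊥ := by
      rw [eq_bot_iff, commutator_def, Subgroup.commutator_le]
      intro a _ b _
      rw [Subgroup.mem_bot, commutatorElement_eq_one_iff_mul_comm]
      exact hcomm a b
    rw [this, Subgroup.index_bot]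
  rw [← h1]
  have hfin : Finite (P →* ℂˣ) := Nat.finite_of_card_ne_zero (by rw [h1]; exact Nat.card_pos.ne')
  let res : LA C r → (P →* ℂˣ) := fun f => f.1.comp (Subgroup.inclusion D.hPC)
  have hres : Function.Injective res := by
    intro f g hfg
    apply Subtype.ext
    apply D.eq_of_P f.2.1 g.2.1
    intro x hx
    exact DFunLike.congr_fun hfg ⟨x, hx⟩
  have hrange : Set.range res = {1}ᶜ := by
    ext ω
    constructor
    · rintro ⟨f, rfl⟩ h
      apply f.2.2
      apply D.eq_of_P f.2.1 (fun _ _ => rfl)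
      intro x hx
      exact DFunLike.congr_fun h ⟨x, hx⟩
    · intro h
      obtain ⟨f, hf1, hf2⟩ := D.exists_ext ω
      refine ⟨⟨f, hf1, ?_⟩, ?_⟩
      · rintro rfl
        apply h
        show ω = 1
        ext x
        rw [← hf2 x x.2]
        rfl
      · ext x
        show ((f ⟨x, D.hPC x.2⟩ : ℂˣ) : ℂ) = _
        rw [hf2 x x.2]
  have hfinLA : Finite (LA C r) := Finite.of_injective res hres
  have h2 : Nat.card (LA C r) = Set.ncard ({1}ᶜ : Set (P →* ℂˣ)) := by
    rw [← hrange, ← Nat.card_coe_set_eq]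
    exact Nat.card_congr (Equiv.ofInjective res hres)
  rw [h2, Set.ncard_compl, Set.ncard_singleton]
  have : 0 < Nat.card (P →* ℂˣ) := Nat.card_pos
  omega

theorem conj_mem_C {f : C →* ℂˣ} (hf : ∀ c : C, (c : G) ^ r = 1 → f c = 1) (hf1 : f ≠ 1) (n : N)
    (h : f.comp (D.cj n).toMonoidHom = f) : (n : G) ∈ C := by
  by_contra hn
  apply hf1
  apply D.eq_of_P hf (fun _ _ => rfl)
  -- commutator map is bijective on P
  let κ : P → P := fun x => ⟨(x : G)⁻¹ * ((n : G)⁻¹ * x * n), P.mul_mem (P.inv_mem x.2)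
    (D.hNP n n.2 x x.2)⟩
  have hinj : Function.Injective κ := by
    intro x y hxy
    have h1 : (x : G)⁻¹ * ((n : G)⁻¹ * x * n) = (y : G)⁻¹ * ((n : G)⁻¹ * y * n) :=
      congrArg Subtype.val hxy
    -- z = y x⁻¹ commutes with n
    by_contra hne
    have hz : (y : G) * (x : G)⁻¹ ≠ 1 := by
      intro h2
      apply hne
      apply Subtype.ext
      rw [mul_inv_eq_one] at h2
      exact h2.symm
    apply hn
    apply D.hC _ (P.mul_mem y.2 (P.inv_mem x.2)) hz
    -- n z = z n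
    have h3 : (y : G) * (x : G)⁻¹ = ((n : G)⁻¹ * y * n) * ((n : G)⁻¹ * x * n)⁻¹ := by
      have h4 : (y : G) * (x : G)⁻¹ * ((n : G)⁻¹ * x * n) = (n : G)⁻¹ * y * n := by
        rw [mul_assoc, h1, mul_inv_cancel_left]
      rw [← h4]; group
    have h5 : ((n : G)⁻¹ * y * n) * ((n : G)⁻¹ * x * n)⁻¹ = (n : G)⁻¹ * ((y : G) * (x : G)⁻¹) * n := by
      group
    rw [h5] at h3
    conv_lhs => rw [h3]
    group
  have hsurj : Function.Surjective κ := Finite.surjective_of_injective hinj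
  intro x hx
  obtain ⟨y, hy⟩ := hsurj ⟨x, hx⟩
  have hy' : (y : G)⁻¹ * ((n : G)⁻¹ * y * n) = x := congrArg Subtype.val hy
  have h6 : (⟨x, D.hPC hx⟩ : C) = (⟨y, D.hPC y.2⟩ : C)⁻¹ * D.cj n ⟨y, D.hPC y.2⟩ :=
    Subtype.ext hy'.symm
  rw [h6, map_mul, map_inv]
  have h7 : f (D.cj n ⟨y, D.hPC y.2⟩) = f ⟨y, D.hPC y.2⟩ :=
    DFunLike.congr_fun h _
  rw [h7, inv_mul_cancel]
  rfl

end Data

end H98.BrLeo
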