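import Cfsg.Agent.Lib.H98.BrLeoA

/-!
# Families of exceptional characters for the local data
-/

set_option autoImplicit false
open Cfsg Representation
open scoped ComplexConjugate

namespace H98.BrLeo

open H18.CharBasic H18.CharOrtho H18.CharInd H18.CharQuot

universe u v

namespace Data

variable {G : Type u} [Group G] [Fintype G] {P C N : Subgroup G} [Fintype C] [Fintype N] {r : ℕ}
  (D : Data P C N r)

/-- the conjugate of a linear character -/
def cf (n : N) (f : LA C r) : LA C r :=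
  ⟨f.1.comp (D.cj n).toMonoidHom, by
    refine ⟨fun c hc => ?_, fun h => ?_⟩
    · apply f.2.1
      show ((n : G)⁻¹ * c * n) ^ r = 1
      have h1 : ((n : G)⁻¹ * c * n) ^ r = (n : G)⁻¹ * c ^ r * n := by
        have := conj_pow (i := r) (a := (n : G)⁻¹) (b := (c : G))
        rwa [inv_inv] at this
      rw [h1, hc]; group
    · apply f.2.2
      ext c
      have := DFunLike.congr_fun h ((D.cj n).symm c)
      simpa using congrArg (fun z : ℂˣ => (z : ℂ)) this⟩

@[simp] theorem cf_apply (n : N) (f : LA C r) (c : C) : (D.cf n f).1 c = f.1 (D.cj n c) := rfl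

/-- the action of `N` -/
@[reducible] def act : MulAction N (LA C r) where
  smul n f := D.cf n f
  one_smul f := by
    apply Subtype.ext
    ext c
    show ((f.1 (D.cj 1 c) : ℂˣ) : ℂ) = _
    congr 2
    apply Subtype.ext
    simp
  mul_smul n m f := by
    apply Subtype.ext
    ext c
    show ((f.1 (D.cj (n * m) c) : ℂˣ) : ℂ) = ((f.1 (D.cj m (D.cj n c)) : ℂˣ) : ℂ)
    congr 2
    apply Subtype.ext
    simp [mul_assoc]

theorem cf_eq_iff (n : N) (f : LA C r) : D.cf n f = f ↔ (n : G) ∈ C := by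
  constructor
  · intro h
    exact D.conj_mem_C f.2.1 f.2.2 n (congrArg Subtype.val h)
  · intro h
    apply Subtype.ext
    ext c
    show ((f.1 (D.cj n c) : ℂˣ) : ℂ) = _
    have h1 : D.cj n c = (⟨n, h⟩ : C)⁻¹ * c * ⟨n, h⟩ := by
      apply Subtype.ext
      rfl
    rw [h1, map_mul, map_mul, map_inv, mul_comm ((f.1 ⟨n, h⟩)⁻¹), inv_mul_cancel_right]

theorem exists_reps : ∃ (t : ℕ) (rep : Fin t → LA C r) (cl : LA C r → Fin t),
    (∀ f, ∃ n, f = D.cf n (rep (cl f))) ∧ (∀ i j n, rep i = D.cf n (rep j) → i = j) ∧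
    (∀ i, Nat.card {f : LA C r // cl f = i} * Nat.card C = Nat.card N) := by
  classical
  letI := D.act
  have hfin : Finite (LA C r) := by
    have : Nat.card (LA C r) + 1 = Nat.card P := D.card_LA
    have hf : Finite (P →* ℂˣ) := by
      have h1 : Nat.card (P →* ℂˣ) = (commutator P).index := card_hom_eq_index
      exact Nat.finite_of_card_ne_zero (by rw [h1]; exact Subgroup.index_ne_zero_of_finite)
    apply Finite.of_injective (fun f : LA C r => f.1.comp (Subgroup.inclusion D.hPC))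
    intro f g hfg
    apply Subtype.ext
    apply D.eq_of_P f.2.1 g.2.1
    intro x hx
    exact DFunLike.congr_fun hfg ⟨x, hx⟩
  let Q := MulAction.orbitRel.Quotient N (LA C r)
  have hQ : Finite Q := Quotient.finite _
  let eq := Finite.equivFin Q
  refine ⟨Nat.card Q, fun i => (eq.symm i).out, fun f => eq (Quotient.mk _ f), ?_, ?_, ?_⟩
  · intro f
    simp only [Equiv.symm_apply_apply]
    have h1 : (MulAction.orbitRel N (LA C r)) (Quotient.mk (MulAction.orbitRel N (LA C r)) f).out f :=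
      Quotient.exact (Quotient.out_eq _)
    have h2 : f ∈ MulAction.orbit N (Quotient.mk (MulAction.orbitRel N (LA C r)) f).out :=
      MulAction.orbitRel_apply.mp ((MulAction.orbitRel N (LA C r)).symm h1)
    obtain ⟨n, hn⟩ := h2
    exact ⟨n, hn.symm⟩
  · intro i j n h
    apply eq.symm.injective
    rw [← Quotient.out_eq (eq.symm i), ← Quotient.out_eq (eq.symm j)]
    apply Quotient.sound
    show (MulAction.orbitRel N (LA C r)) _ _
    rw [MulAction.orbitRel_apply]
    exact ⟨n, h.symm⟩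
  · intro i
    obtain ⟨f, hf⟩ : ∃ f : LA C r, Quotient.mk (MulAction.orbitRel N (LA C r)) f = eq.symm i :=
      ⟨_, Quotient.out_eq _⟩
    have h1 : Nat.card {g : LA C r // eq (Quotient.mk (MulAction.orbitRel N (LA C r)) g) = i} =
        Nat.card (MulAction.orbit N f) := by
      apply Nat.card_congr
      apply Equiv.subtypeEquivRight
      intro g
      rw [← MulAction.orbitRel_apply, ← Equiv.eq_symm_apply, ← hf]
      exact Quotient.eq
    have h2 : Nat.card (MulAction.stabilizer N f) = Nat.card C := by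
      let F : MulAction.stabilizer N f → C := fun n => ⟨(n : N), (D.cf_eq_iff n f).mp n.2⟩
      have hF : Function.Bijective F := by
        constructor
        · intro a b hab
          apply Subtype.ext
          apply Subtype.ext
          exact congrArg (fun z : C => (z : G)) hab
        · intro c
          exact ⟨⟨⟨c, D.hCN c.2⟩, (D.cf_eq_iff ⟨c, D.hCN c.2⟩ f).mpr c.2⟩, rfl⟩
      exact Nat.card_congr (Equiv.ofBijective F hF)
    rw [h1, ← h2]
    haveI : Fintype (MulAction.orbit N f) := Fintype.ofFinite _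
    haveI : Fintype (MulAction.stabilizer N f) := Fintype.ofFinite _
    have h3 := MulAction.card_orbit_mul_card_stabilizer_eq_card_group N f
    rw [Nat.card_eq_fintype_card, Nat.card_eq_fintype_card, Nat.card_eq_fintype_card]
    exact h3

/-- product of a linear character and a function -/
def tw (f : C →* ℂˣ) (ψ : C → ℂ) : C → ℂ := fun c => (f c : ℂ) * ψ c

theorem isIrr_tw (f : C →* ℂˣ) {ψ : C → ℂ} (hψ : IsIrrCharacter C ψ) : IsIrrCharacter C (tw f ψ) :=
  isIrrCharacter_hom_mul f hψ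

/-- `ψ` has `P` in its kernel -/
def PK (D : Data P C N r) (ψ : C → ℂ) : Prop := ∀ x (hx : x ∈ P), ψ ⟨x, D.hPC hx⟩ = ψ 1

theorem isIrr_cj (n : N) {ψ : C → ℂ} (hψ : IsIrrCharacter C ψ) :
    IsIrrCharacter C (fun c => ψ (D.cj n c)) :=
  isIrrCharacter_comp (D.cj n).toMonoidHom (D.cj n).surjective hψ

theorem PK_cj (n : N) {ψ : C → ℂ} (hψ : D.PK ψ) : D.PK (fun c => ψ (D.cj n c)) := by
  intro x hx
  have h1 : D.cj n ⟨x, D.hPC hx⟩ = ⟨(n : G)⁻¹ * x * n, D.hPC (D.hNP n n.2 x hx)⟩ := rfl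
  show ψ (D.cj n _) = ψ (D.cj n 1)
  rw [h1, hψ _ (D.hNP n n.2 x hx), map_one]

theorem PK_one : D.PK (fun _ => 1) := fun _ _ => rfl

/-- comparing twists -/
theorem tw_eq {f g : LA C r} {ψ ψ' : C → ℂ} (hψ : IsIrrCharacter C ψ) (hP : D.PK ψ)
    (hP' : D.PK ψ') (n : N) (h : tw f.1 ψ = fun c => tw g.1 ψ' (D.cj n c)) : f = D.cf n g := by
  have h1 : ψ 1 = ψ' 1 := by
    have := congrFun h 1
    simpa [tw] using this
  have h0 := irr_one_ne_zero hψ
  apply Subtype.ext
  apply D.eq_of_P f.2.1 (D.cf n g).2.1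
  intro x hx
  have h2 := congrFun h ⟨x, D.hPC hx⟩
  have h3 : D.cj n ⟨x, D.hPC hx⟩ = ⟨(n : G)⁻¹ * x * n, D.hPC (D.hNP n n.2 x hx)⟩ := rfl
  simp only [tw] at h2
  rw [hP x hx, h3, hP' _ (D.hNP n n.2 x hx), ← h1] at h2
  have h4 := mul_right_cancel₀ h0 h2
  apply Units.ext
  exact h4

include D in
theorem tw_inj {f g : LA C r} {ψ ψ' : C → ℂ} (hψ : IsIrrCharacter C ψ) (hP : D.PK ψ)
    (hP' : D.PK ψ') (h : tw f.1 ψ = tw g.1 ψ') : f = g := by
  have h1 := D.tw_eq hψ hP hP' 1 (by rw [h]; funext c; congr 1; apply Subtype.ext; simp)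
  rw [h1]
  exact (D.cf_eq_iff 1 g).mpr (by simpa using C.one_mem)

variable {t : ℕ} {rep : Fin t → LA C r}

theorem inner_irr_cj {θ θ' : C → ℂ} (h : IsIrrCharacter C θ) (h' : IsIrrCharacter C θ') (n : N)
    [Decidable (θ = fun c => θ' (D.cj n c))] :
    classInner θ (fun c => θ' (D.cj n c)) = if θ = (fun c => θ' (D.cj n c)) then 1 else 0 := by
  split_ifs with h1
  · rw [← h1]; exact inner_irr_self h
  · exact inner_irr_ne h (D.isIrr_cj n h') h1

theorem sum_same (hrep : ∀ i j n, rep i = D.cf n (rep j) → i = j) {ψ : C → ℂ}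
    (hψ : IsIrrCharacter C ψ) (hP : D.PK ψ) (i j : Fin t) :
    ∑ n : N, classInner (tw (rep i).1 ψ) (fun c => tw (rep j).1 ψ (D.cj n c)) =
      if i = j then (Nat.card C : ℂ) else 0 := by
  classical
  have key : ∀ n : N, classInner (tw (rep i).1 ψ) (fun c => tw (rep j).1 ψ (D.cj n c)) =
      if i = j ∧ (n : G) ∈ C then 1 else 0 := by
    intro n
    rw [D.inner_irr_cj (isIrr_tw _ hψ) (isIrr_tw _ hψ) n]
    have hiff : (tw (rep i).1 ψ = fun c => tw (rep j).1 ψ (D.cj n c)) ↔ i = j ∧ (n : G) ∈ C := by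
      constructor
      · intro h
        have h1 := D.tw_eq hψ hP hP n h
        have h2 := hrep i j n h1
        refine ⟨h2, ?_⟩
        subst h2
        exact (D.cf_eq_iff n _).mp h1.symm
      · rintro ⟨rfl, hn⟩
        funext c
        have h1 := isClassFunction_of_isIrr (isIrr_tw (rep i).1 hψ)
        have h2 : D.cj n c = (⟨n, hn⟩ : C)⁻¹ * c * ((⟨n, hn⟩ : C)⁻¹)⁻¹ := by
          apply Subtype.ext
          simp
        rw [h2, h1]
    simp only [hiff]
  simp only [key]
  by_cases hij : i = j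
  · simp only [hij, true_and, if_true]
    rw [← Finset.sum_filter, Finset.sum_const, nsmul_eq_mul, mul_one]
    congr 1
    rw [Nat.card_eq_fintype_card, ← Fintype.card_coe]
    apply Fintype.card_congr
    exact {
      toFun := fun n => ⟨(n.1 : G), (Finset.mem_filter.mp n.2).2⟩
      invFun := fun c => ⟨⟨c, D.hCN c.2⟩, Finset.mem_filter.mpr ⟨Finset.mem_univ _, c.2⟩⟩
      left_inv := fun n => rfl
      right_inv := fun c => rfl }
  · simp [hij]

theorem sum_tw_one {ψ : C → ℂ} (hψ : IsIrrCharacter C ψ) (hP : D.PK ψ) (f : LA C r) :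
    ∑ n : N, classInner (tw f.1 ψ) (fun c => (fun _ => 1 : C → ℂ) (D.cj n c)) = 0 := by
  classical
  apply Finset.sum_eq_zero
  intro n _
  apply inner_irr_ne (isIrr_tw _ hψ) isIrrCharacter_one
  intro h
  apply f.2.2
  apply D.eq_of_P f.2.1 (fun _ _ => rfl)
  intro x hx
  have h1 := congrFun h ⟨x, D.hPC hx⟩
  have h2 := congrFun h 1
  simp only [tw, map_one, Units.val_one, one_mul] at h1 h2
  rw [hP x hx, h2, mul_one] at h1
  exact Units.ext h1

theorem sum_one_tw {ψ : C → ℂ} (hψ : IsIrrCharacter C ψ) (hP : D.PK ψ) (f : LA C r) :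
    ∑ n : N, classInner (fun _ => 1 : C → ℂ) (fun c => tw f.1 ψ (D.cj n c)) = 0 := by
  classical
  apply Finset.sum_eq_zero
  intro n _
  apply inner_irr_ne isIrrCharacter_one (D.isIrr_cj n (isIrr_tw _ hψ))
  intro h
  apply f.2.2
  apply D.eq_of_P f.2.1 (fun _ _ => rfl)
  intro x hx
  have h1 := congrFun h ((D.cj n).symm ⟨x, D.hPC hx⟩)
  have h2 := congrFun h 1
  simp only [tw, MulEquiv.apply_symm_apply, map_one, Units.val_one, one_mul] at h1 h2
  rw [hP x hx, ← h2, mul_one] at h1
  exact Units.ext h1.symm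

omit [Fintype G] in
theorem sum_one_one : ∑ n : N, classInner (fun _ => 1 : C → ℂ) (fun c => (fun _ => 1 : C → ℂ) (c)) =
    (Nat.card N : ℂ) := by
  have h1 : classInner (fun _ => 1 : C → ℂ) (fun _ => 1) = 1 := inner_irr_self isIrrCharacter_one
  show ∑ n : N, classInner (fun _ => 1 : C → ℂ) (fun _ => 1) = _
  rw [Finset.sum_congr rfl (fun n _ => h1), Finset.sum_const, Finset.card_univ, nsmul_eq_mul,
    mul_one, Nat.card_eq_fintype_card]

theorem sum_ne {ψ : C → ℂ} (hψ : IsIrrCharacter C ψ) (hP : D.PK ψ) (h1 : ψ ≠ fun _ => 1)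
    (f g : LA C r) : ∑ n : N, classInner (tw f.1 ψ) (fun c => tw g.1 (fun _ => 1) (D.cj n c)) = 0 := by
  classical
  apply Finset.sum_eq_zero
  intro n _
  apply inner_irr_ne (isIrr_tw _ hψ) (D.isIrr_cj n (isIrr_tw _ isIrrCharacter_one))
  intro h
  have h2 := D.tw_eq hψ hP D.PK_one n h
  apply h1
  funext c
  have h3 := congrFun h c
  rw [h2] at h3
  simp only [tw, cf_apply, mul_one] at h3
  have h4 : ((g.1 (D.cj n c) : ℂˣ) : ℂ) ≠ 0 := Units.ne_zero _
  exact mul_left_cancel₀ h4 (by rw [h3, mul_one])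

theorem sum_sub (a b c d : C → ℂ) :
    ∑ n : N, classInner (a - b) (fun x => (c - d) (D.cj n x)) =
      ∑ n : N, classInner a (fun x => c (D.cj n x)) - ∑ n : N, classInner a (fun x => d (D.cj n x))
      - ∑ n : N, classInner b (fun x => c (D.cj n x)) +
      ∑ n : N, classInner b (fun x => d (D.cj n x)) := by
  rw [← Finset.sum_sub_distrib, ← Finset.sum_sub_distrib, ← Finset.sum_add_distrib]
  refine Finset.sum_congr rfl fun n _ => ?_
  have : (fun x => (c - d) (D.cj n x)) = (fun x => c (D.cj n x)) - (fun x => d (D.cj n x)) := rfl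
  rw [this, H18.CharOrtho.inner_sub_left, H18.CharOrtho.inner_sub_right,
    H18.CharOrtho.inner_sub_right]
  ring

theorem van (f g : LA C r) (ψ : C → ℂ) (c : C) (hc : (c : G) ^ r = 1) :
    (tw f.1 ψ - tw g.1 ψ) c = 0 := by
  simp only [Pi.sub_apply, tw]
  rw [f.2.1 c hc, g.2.1 c hc, sub_self]

theorem van1 (f : LA C r) (c : C) (hc : (c : G) ^ r = 1) :
    ((fun _ => 1 : C → ℂ) - tw f.1 (fun _ => 1)) c = 0 := by
  simp only [Pi.sub_apply, tw]
  rw [f.2.1 c hc]; simp

theorem card_ne : (Nat.card C : ℂ) ≠ 0 := by exact_mod_cast (Nat.card_pos (α := C)).ne'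

/-- the exceptional characters -/
theorem family (hrep : ∀ i j n, rep i = D.cf n (rep j) → i = j) (ht : 2 ≤ t) {ψ : C → ℂ}
    (hψ : IsIrrCharacter C ψ) (hP : D.PK ψ) :
    ∃ ε : ℂ, (ε = 1 ∨ ε = -1) ∧ ∃ X : Fin t → (G → ℂ), (∀ i, IsIrrCharacter G (X i)) ∧
      Function.Injective X ∧
      ∀ i j, indFun C (tw (rep i).1 ψ) - indFun C (tw (rep j).1 ψ) = ε • (X i - X j) := by
  classical
  apply H4.Exceptional.coherence t ht (fun i => indFun C (tw (rep i).1 ψ))
  · intro i
    exact isGen_ind C (isGen_of_isIrr (isIrr_tw _ hψ))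
  · intro i j
    rw [indFun_one, indFun_one]
    simp [tw]
  · intro i j k l
    rw [← indFun_sub, ← indFun_sub, D.inner_ind (van _ _ ψ) (van _ _ ψ), D.sum_sub,
      D.sum_same hrep hψ hP, D.sum_same hrep hψ hP, D.sum_same hrep hψ hP,
      D.sum_same hrep hψ hP]
    have h0 := card_ne (C := C)
    split_ifs <;> field_simp <;> ring

/-- the virtual characters `(1 - f_k)^G` -/
noncomputable def al (f : LA C r) : G → ℂ := indFun C ((fun _ => 1) - tw f.1 (fun _ => 1))

theorem al_gen (f : LA C r) : IsGeneralizedCharacter G (al f) :=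
  isGen_ind C (isGen_sub isGen_one (isGen_of_isIrr (isIrr_tw _ isIrrCharacter_one)))

theorem al_one (f : LA C r) : al f 1 = 0 := by
  rw [al, indFun_one]
  simp [tw]

theorem al_norm (hrep : ∀ i j n, rep i = D.cf n (rep j) → i = j) (k : Fin t) {e : ℕ}
    (he : e * Nat.card C = Nat.card N) : classInner (al (rep k)) (al (rep k)) = (e + 1 : ℕ) := by
  rw [al, D.inner_ind (van1 _) (van1 _), D.sum_sub, D.sum_one_tw isIrrCharacter_one D.PK_one,
    D.sum_tw_one isIrrCharacter_one D.PK_one, D.sum_same hrep isIrrCharacter_one D.PK_one,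
    sum_one_one, ← he]
  have h0 := card_ne (C := C)
  simp
  field_simp

theorem al_fam_ne {ψ : C → ℂ}
    (hψ : IsIrrCharacter C ψ) (hP : D.PK ψ) (h1 : ψ ≠ fun _ => 1) (i j k : Fin t) :
    classInner (indFun C (tw (rep i).1 ψ) - indFun C (tw (rep j).1 ψ)) (al (rep k)) = 0 := by
  rw [al, ← indFun_sub, D.inner_ind (van _ _ ψ) (van1 _), D.sum_sub,
    D.sum_tw_one hψ hP, D.sum_tw_one hψ hP, D.sum_ne hψ hP h1, D.sum_ne hψ hP h1]
  simp

theorem al_fam_one (hrep : ∀ i j n, rep i = D.cf n (rep j) → i = j) (i j k : Fin t) (hi : i ≠ k)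
    (hj : j ≠ k) :
    classInner (indFun C (tw (rep i).1 (fun _ => 1)) - indFun C (tw (rep j).1 (fun _ => 1)))
      (al (rep k)) = 0 := by
  rw [al, ← indFun_sub, D.inner_ind (van _ _ _) (van1 _), D.sum_sub,
    D.sum_tw_one isIrrCharacter_one D.PK_one, D.sum_tw_one isIrrCharacter_one D.PK_one,
    D.sum_same hrep isIrrCharacter_one D.PK_one, D.sum_same hrep isIrrCharacter_one D.PK_one]
  simp [hi, hj]

theorem inner_al {φ : G → ℂ} (hφ : IsClassFunction G φ) (f : LA C r) :
    classInner φ (al f) = classInner (fun c : C => φ c) (fun _ => 1) -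
      classInner (fun c : C => φ c) (tw f.1 (fun _ => 1)) := by
  rw [al, frobenius' C _ hφ, H18.CharOrtho.inner_sub_right]

theorem inner_one_al (hrep : ∀ i j n, rep i = D.cf n (rep j) → i = j) (k : Fin t) :
    classInner (fun _ => 1 : G → ℂ) (al (rep k)) = 1 := by
  rw [inner_al (isClassFunction_const 1)]
  have h1 : classInner (fun _ => 1 : C → ℂ) (fun _ => 1) = 1 := inner_irr_self isIrrCharacter_one
  have h2 : classInner (fun _ => 1 : C → ℂ) (tw (rep k).1 (fun _ => 1)) = 0 := by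
    apply inner_irr_ne isIrrCharacter_one (isIrr_tw _ isIrrCharacter_one)
    intro h
    apply (rep k).2.2
    ext c
    have := congrFun h c
    simp only [tw, mul_one] at this
    exact this.symm
  show classInner (fun _ => 1 : C → ℂ) (fun _ => 1) -
    classInner (fun _ => 1 : C → ℂ) (tw (rep k).1 (fun _ => 1)) = 1
  rw [h1, h2, sub_zero]

end Data

end H98.BrLeo
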