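import Cfsg.Agent.Lib.H98.BrLeoB
import Cfsg.Agent.Lib.H18.CharCentral

/-!
# The main counting argument
-/

set_option autoImplicit false
open Cfsg Representation
open scoped ComplexConjugate

namespace H98.BrLeo

open H18.CharBasic H18.CharOrtho H18.CharInd H18.CharQuot

universe u v

theorem central_mul {H : Type u} [Group H] [Fintype H] {θ : H → ℂ} (hθ : IsIrrCharacter H θ)
    {z : H} (hz : ∀ c, z * c = c * z) (y : H) : θ (z * y) * θ 1 = θ z * θ y := by
  classical
  have h1 : IsClassFunction H (fun g => if g = z then (1 : ℂ) else 0) := by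
    intro g h
    have : h * g * h⁻¹ = z ↔ g = z := by
      constructor
      · intro h2
        have : g = h⁻¹ * z * h := by rw [← h2]; group
        rw [this, mul_assoc, hz, inv_mul_cancel_left]
      · rintro rfl
        rw [← hz, mul_inv_cancel_right]
    simp only [this]
  have h2 := H18.CharCentral.sum_mul_shift hθ h1 y
  simp only [ite_mul, one_mul, zero_mul, Finset.sum_ite_eq', Finset.mem_univ, if_true] at h2
  have h0 := irr_one_ne_zero hθ
  rw [h2]
  field_simp

/-- the norm argument -/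
theorem norm_arg {G : Type u} [Group G] [Fintype G] {a : G → ℂ} (ha : IsGeneralizedCharacter G a)
    (ha1 : a 1 = 0) (e : ℕ) (hn : classInner a a = (e + 1 : ℕ))
    (h1 : classInner (fun _ => 1 : G → ℂ) a = 1) {ι : Type v} (S : Finset ι) (X : ι → G → ℂ)
    (hX : ∀ i, IsIrrCharacter G (X i)) (hinj : Function.Injective X)
    (hX1 : ∀ i, X i ≠ fun _ => 1) (hdeg : ∀ i j, X i 1 = X j 1) (hSe : e ≤ S.card)
    (hS2 : 2 ≤ S.card) (hs : ∀ i ∈ S, ∀ j ∈ S, classInner (X i) a = classInner (X j) a)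
    (i0 : ι) (hi0 : i0 ∈ S) : classInner (X i0) a = 0 := by
  classical
  have := Fintype.ofFinite (IrrCharacter G)
  by_contra hne
  obtain ⟨c, hc, hexp⟩ := H4.Exceptional.exists_coeff ha
  have hc' : ∀ χ : IrrCharacter G, classInner (χ : G → ℂ) a = c χ := by
    intro χ
    rw [← H18.CharOrtho.inner_conj_symm, hc]
    simp
  rw [H4.Exceptional.norm_eq_sum_sq ha c hc] at hn
  have hn' : ∑ χ : IrrCharacter G, c χ ^ 2 = e + 1 := by exact_mod_cast hn
  let O : IrrCharacter G := ⟨fun _ => 1, isIrrCharacter_one⟩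
  let F : ι → IrrCharacter G := fun i => ⟨X i, hX i⟩
  have hFinj : Function.Injective F := fun i j h => hinj (congrArg Subtype.val h)
  have hO : O ∉ S.image F := by
    intro h
    obtain ⟨i, _, hi⟩ := Finset.mem_image.mp h
    exact hX1 i (congrArg Subtype.val hi)
  have hcO : c O = 1 := by
    have := hc' O
    rw [show ((O : IrrCharacter G) : G → ℂ) = fun _ => 1 from rfl, h1] at this
    exact_mod_cast this.symm
  obtain ⟨s, hs0, hcs⟩ : ∃ s : ℤ, s ≠ 0 ∧ ∀ i ∈ S, c (F i) = s := by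
    refine ⟨c (F i0), ?_, ?_⟩
    · intro h
      apply hne
      have := hc' (F i0)
      rw [h] at this
      simpa [F] using this
    · intro i hi
      have h2 := hs i hi i0 hi0
      rw [show X i = ((F i : IrrCharacter G) : G → ℂ) from rfl,
        show X i0 = ((F i0 : IrrCharacter G) : G → ℂ) from rfl, hc', hc'] at h2
      exact_mod_cast h2
  let T := insert O (S.image F)
  have hT : ∑ χ ∈ T, c χ ^ 2 = 1 + S.card * s ^ 2 := by
    rw [Finset.sum_insert hO, hcO, Finset.sum_image hFinj.injOn, Finset.sum_congr rfl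
      (fun i hi => by rw [hcs i hi]), Finset.sum_const, nsmul_eq_mul, one_pow]
  have hsplit : ∑ χ ∈ T, c χ ^ 2 + ∑ χ ∈ Tᶜ, c χ ^ 2 = e + 1 := by
    rw [Finset.sum_add_sum_compl, hn']
  have hrest0 : 0 ≤ ∑ χ ∈ Tᶜ, c χ ^ 2 := Finset.sum_nonneg fun χ _ => sq_nonneg _
  have hs1 : 1 ≤ s ^ 2 := by
    have : 0 < s ^ 2 := by positivity
    omega
  have hSc : (e : ℤ) ≤ S.card := by exact_mod_cast hSe
  have hS2' : (2 : ℤ) ≤ S.card := by exact_mod_cast hS2
  have hrest : ∑ χ ∈ Tᶜ, c χ ^ 2 = 0 := by nlinarith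
  have hse : (S.card : ℤ) * s ^ 2 = e := by linarith
  have hs2 : s ^ 2 = 1 := by nlinarith
  have hz : ∀ χ, χ ∉ T → c χ = 0 := by
    intro χ hχ
    have h3 := (Finset.sum_eq_zero_iff_of_nonneg (fun χ _ => sq_nonneg (c χ))).mp hrest χ
      (Finset.mem_compl.mpr hχ)
    exact pow_eq_zero_iff (two_ne_zero) |>.mp h3
  -- evaluate at 1
  obtain ⟨d, hd0, hd⟩ := exists_degree_pos (hX i0)
  have h5 : a 1 = 1 + (s : ℂ) * S.card * d := by
    conv_lhs => rw [hexp]
    rw [Finset.sum_apply]
    rw [← Finset.sum_subset (Finset.subset_univ T) (fun χ _ hχ => by rw [hz χ hχ]; simp)]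
    rw [Finset.sum_insert hO, Finset.sum_image hFinj.injOn]
    have h6 : ∀ i ∈ S, ((c (F i) : ℂ) • ((F i : IrrCharacter G) : G → ℂ)) 1 = (s : ℂ) * d := by
      intro i hi
      rw [hcs i hi, Pi.smul_apply, smul_eq_mul]
      congr 1
      show X i 1 = d
      rw [hdeg i i0, hd]
    rw [Finset.sum_congr rfl h6, Finset.sum_const, hcO, nsmul_eq_mul]
    simp [O]
    ring
  rw [ha1] at h5
  have h7 : (0 : ℤ) = 1 + s * S.card * d := by exact_mod_cast h5
  have h8 : (1 : ℤ) ≤ d := by exact_mod_cast hd0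
  have h9 : s = 1 ∨ s = -1 := by
    have h10 : (s - 1) * (s + 1) = 0 := by linear_combination hs2
    rcases mul_eq_zero.mp h10 with h | h
    · left; linarith
    · right; linarith
  rcases h9 with rfl | rfl
  · nlinarith
  · nlinarith

namespace Data

variable {G : Type u} [Group G] [Fintype G] {P C N : Subgroup G} [Fintype C] [Fintype N] {r : ℕ}
  (D : Data P C N r)

include D in
theorem exists_omega {θ : C → ℂ} (hθ : IsIrrCharacter C θ) : ∃ ω : P →* ℂˣ,
    ∀ x (hx : x ∈ P), θ ⟨x, D.hPC hx⟩ = (ω ⟨x, hx⟩ : ℂ) * θ 1 := by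
  have h0 := irr_one_ne_zero hθ
  have hcm : ∀ x (hx : x ∈ P) (y : C), θ (⟨x, D.hPC hx⟩ * y) * θ 1 = θ ⟨x, D.hPC hx⟩ * θ y :=
    fun x hx y => central_mul hθ (fun c => Subtype.ext (D.hcen x hx c c.2)) y
  have hne : ∀ x (hx : x ∈ P), θ ⟨x, D.hPC hx⟩ ≠ 0 := by
    intro x hx h
    have h1 := hcm x hx (⟨x, D.hPC hx⟩)⁻¹
    rw [mul_inv_cancel, h, zero_mul] at h1
    exact h0 (by simpa using h1)
  refine ⟨{ toFun := fun x => Units.mk0 (θ ⟨x, D.hPC x.2⟩ / θ 1) (div_ne_zero (hne x x.2) h0)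
            map_one' := ?_
            map_mul' := ?_ }, ?_⟩
  · ext
    show θ ⟨((1 : P) : G), _⟩ / θ 1 = 1
    rw [show (⟨((1 : P) : G), D.hPC (1 : P).2⟩ : C) = 1 from rfl, div_self h0]
  · intro x y
    ext
    show θ ⟨((x * y : P) : G), _⟩ / θ 1 = θ ⟨x, _⟩ / θ 1 * (θ ⟨y, _⟩ / θ 1)
    have h1 := hcm x x.2 ⟨y, D.hPC y.2⟩
    have h2 : (⟨((x * y : P) : G), D.hPC (x * y).2⟩ : C) = ⟨x, D.hPC x.2⟩ * ⟨y, D.hPC y.2⟩ := rfl
    rw [h2]
    field_simp
    exact h1
  · intro x hx
    show _ = θ ⟨x, _⟩ / θ 1 * θ 1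
    rw [div_mul_cancel₀ _ h0]

include D in
theorem exists_mult {φ : G → ℂ} (hφ : IsCharacter G φ) {x : G} (hx : x ∈ P) (hne : φ x ≠ φ 1) :
    ∃ (f : LA C r) (ψ : C → ℂ), IsIrrCharacter C ψ ∧ D.PK ψ ∧
      classInner (fun c : C => φ c) (tw f.1 ψ) ≠ 0 := by
  classical
  have := Fintype.ofFinite (IrrCharacter C)
  have hφC : IsCharacter C (fun c : C => φ c) := isCharacter_restrict C hφ
  obtain ⟨θ, hm, hθx⟩ : ∃ θ : IrrCharacter C, classInner (fun c : C => φ c) (θ : C → ℂ) ≠ 0 ∧
      (θ : C → ℂ) ⟨x, D.hPC hx⟩ ≠ (θ : C → ℂ) 1 := by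
    by_contra hcon
    push Not at hcon
    apply hne
    have h1 := mem_classFun_expand (isClassFunction_of_isCharacter hφC)
    have h2 := congrFun h1 ⟨x, D.hPC hx⟩
    have h3 := congrFun h1 1
    show φ ((⟨x, D.hPC hx⟩ : C) : G) = φ ((1 : C) : G)
    rw [h2, h3, Finset.sum_apply, Finset.sum_apply]
    refine Finset.sum_congr rfl fun θ _ => ?_
    rw [Pi.smul_apply, Pi.smul_apply]
    by_cases h : classInner (fun c : C => φ c) (θ : C → ℂ) = 0
    · rw [h]; simp
    · rw [hcon θ h]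
  obtain ⟨ω, hω⟩ := D.exists_omega θ.2
  obtain ⟨f, hf1, hf2⟩ := D.exists_ext ω
  have h0 := irr_one_ne_zero θ.2
  have hf : f ≠ 1 := by
    rintro rfl
    apply hθx
    rw [hω x hx, ← hf2 x hx]
    simp
  refine ⟨⟨f, hf1, hf⟩, tw f⁻¹ θ, isIrr_tw _ θ.2, ?_, ?_⟩
  · intro y hy
    simp only [tw, MonoidHom.inv_apply, map_one]
    rw [hω y hy, ← hf2 y hy]
    rw [← mul_assoc, ← Units.val_mul, inv_mul_cancel]
  · have : tw f (tw f⁻¹ (θ : C → ℂ)) = θ := by
      funext c
      simp only [tw, MonoidHom.inv_apply]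
      rw [← mul_assoc, ← Units.val_mul, mul_inv_cancel]
      simp
    rw [this]
    exact hm

variable {t : ℕ} {rep : Fin t → LA C r} {cl : LA C r → Fin t}

theorem tw_cf (n : N) (g : LA C r) (ψ : C → ℂ) :
    tw (D.cf n g).1 (fun c => ψ (D.cj n c)) = fun c => tw g.1 ψ (D.cj n c) := rfl

include D in
theorem exists_mult_rep (hcl : ∀ f, ∃ n, f = D.cf n (rep (cl f))) {φ : G → ℂ}
    (hφ : IsCharacter G φ) {x : G} (hx : x ∈ P) (hne : φ x ≠ φ 1) :
    ∃ (i : Fin t) (ψ : C → ℂ), IsIrrCharacter C ψ ∧ D.PK ψ ∧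
      classInner (fun c : C => φ c) (tw (rep i).1 ψ) ≠ 0 := by
  obtain ⟨f, ψ, hψ, hP, hm⟩ := D.exists_mult hφ hx hne
  obtain ⟨n, hn⟩ := hcl f
  refine ⟨cl f, fun c => ψ (D.cj n⁻¹ c), D.isIrr_cj _ hψ, D.PK_cj _ hP, ?_⟩
  rw [← D.mult_conj (isClassFunction_of_isCharacter hφ) n]
  have h1 : (fun c => tw (rep (cl f)).1 (fun c => ψ (D.cj n⁻¹ c)) (D.cj n c)) = tw f.1 ψ := by
    funext c
    have h2 : D.cj n⁻¹ (D.cj n c) = c := by
      apply Subtype.ext
      simp [mul_assoc]
    simp only [tw]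
    rw [h2]
    conv_rhs => rw [hn]
    rfl
  rw [h1]
  exact hm

/-- if all `f_i ψ` occur then the degree is large -/
theorem deg_family [Fintype (LA C r)] (hcl : ∀ f, ∃ n, f = D.cf n (rep (cl f))) {φ : G → ℂ}
    (hφ : IsCharacter G φ) {ψ : C → ℂ} (hψ : IsIrrCharacter C ψ) (hP : D.PK ψ) (S : Finset (LA C r))
    (h : ∀ f ∈ S, classInner (fun c : C => φ c) (tw (rep (cl f)).1 ψ) ≠ 0) :
    (∀ d : ℕ, φ 1 = d → S.card ≤ d) ∧
    (∀ s : ℕ, classInner (fun c : C => φ c) (fun c : C => φ c) = s → S.card ≤ s) := by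
  classical
  choose n hn using hcl
  have hφC : IsCharacter C (fun c : C => φ c) := isCharacter_restrict C hφ
  have hirr : ∀ f ∈ S, IsIrrCharacter C (tw f.1 (fun c => ψ (D.cj (n f) c))) :=
    fun f _ => isIrr_tw _ (D.isIrr_cj _ hψ)
  have hinj : ∀ f ∈ S, ∀ g ∈ S, tw f.1 (fun c => ψ (D.cj (n f) c)) =
      tw g.1 (fun c => ψ (D.cj (n g) c)) → f = g :=
    fun f _ g _ hfg => D.tw_inj (D.isIrr_cj _ hψ) (D.PK_cj _ hP) (D.PK_cj _ hP) hfg
  have hmul : ∀ f, classInner (fun c : C => φ c) (tw f.1 (fun c => ψ (D.cj (n f) c))) =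
      classInner (fun c : C => φ c) (tw (rep (cl f)).1 ψ) := by
    intro f
    have h1 := D.mult_conj (isClassFunction_of_isCharacter hφ) (n f) (tw (rep (cl f)).1 ψ)
    rw [← h1]
    congr 1
    have h2 : f.1 = (D.cf (n f) (rep (cl f))).1 := congrArg Subtype.val (hn f)
    conv_lhs => rw [h2]
    rfl
  constructor
  · intro d hd
    have := deg_ge hφC S (fun f => tw f.1 (fun c => ψ (D.cj (n f) c))) hirr hinj 1 (by
      intro f hf
      obtain ⟨k, hk⟩ := inner_char_natCast hφC (isCharacter_of_isIrr (hirr f hf))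
      refine ⟨k, ?_, hk⟩
      apply Nat.one_le_iff_ne_zero.mpr
      rintro rfl
      apply h f hf
      rw [← hmul, hk]
      simp) d hd
    omega
  · intro s hs
    exact norm_ge hφC S (fun f => tw f.1 (fun c => ψ (D.cj (n f) c))) hirr hinj (by
      intro f hf
      rw [hmul]
      exact h f hf) s hs

/-- `1_C` occurs in an exceptional character `φ` only with large degree -/
theorem key [Fintype (LA C r)] (hcl : ∀ f, ∃ n, f = D.cf n (rep (cl f)))
    (hrep : ∀ i j n, rep i = D.cf n (rep j) → i = j) {e : ℕ} (he : e * Nat.card C = Nat.card N)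
    (ht3 : 3 ≤ t) (hte : e + 1 ≤ t)
    {φ : G → ℂ} (hφ : IsIrrCharacter G φ) {d : ℕ} (hd : φ 1 = d)
    (hdm : d < Fintype.card (LA C r)) {x : G} (hx : x ∈ P) (hne : φ x ≠ φ 1) {b : ℕ}
    (hb : classInner (fun c : C => φ c) (fun _ => 1) = b) (hb0 : b ≠ 0) :
    ∃ i0 : Fin t, b * (1 + (Finset.univ.filter (fun f : LA C r => cl f ≠ i0)).card) ≤ d := by
  classical
  have hφc := isCharacter_of_isIrr hφ
  have hφC : IsCharacter C (fun c : C => φ c) := isCharacter_restrict C hφc
  have hcf := isClassFunction_of_isIrr hφ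
  obtain ⟨i, ψ, hψ, hP, hm⟩ := D.exists_mult_rep hcl hφc hx hne
  obtain ⟨ε, hε, X, hX, hXinj, hXd⟩ := D.family hrep (by omega) hψ hP
  have hε0 : ε ≠ 0 := by rcases hε with rfl | rfl <;> norm_num
  have hin : ∀ i j, classInner (fun c : C => φ c) (tw (rep i).1 ψ) -
      classInner (fun c : C => φ c) (tw (rep j).1 ψ) =
      conj ε * (classInner φ (X i) - classInner φ (X j)) := by
    intro i j
    rw [← frobenius' C _ hcf, ← frobenius' C _ hcf, ← H18.CharOrtho.inner_sub_right, hXd,
      H18.CharOrtho.inner_smul_right, H18.CharOrtho.inner_sub_right]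
  -- φ is exceptional
  obtain ⟨i1, hi1⟩ : ∃ i1, φ = X i1 := by
    by_contra hcon
    push Not at hcon
    have h1 : ∀ j, classInner (fun c : C => φ c) (tw (rep j).1 ψ) ≠ 0 := by
      intro j
      have h2 := hin i j
      rw [inner_irr_ne hφ (hX i) (hcon i), inner_irr_ne hφ (hX j) (hcon j), sub_zero, mul_zero,
        sub_eq_zero] at h2
      rwa [← h2]
    have h3 := (D.deg_family hcl hφc hψ hP Finset.univ (fun f _ => h1 _)).1 d hd
    rw [Finset.card_univ] at h3
    omega
  have hdeg : ∀ i j, X i 1 = X j 1 := by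
    intro i j
    have h2 := congrFun (hXd i j) 1
    rw [Pi.sub_apply, indFun_one, indFun_one] at h2
    have h3 : tw (rep i).1 ψ 1 = tw (rep j).1 ψ 1 := by simp [tw]
    rw [h3, sub_self, Pi.smul_apply, Pi.sub_apply, smul_eq_mul] at h2
    have h4 := (mul_eq_zero.mp h2.symm).resolve_left hε0
    exact sub_eq_zero.mp h4
  have hX1 : ∀ i, X i ≠ fun _ => 1 := by
    intro i hi
    obtain ⟨j, hj⟩ : ∃ j : Fin t, j ≠ i := by
      have : Nontrivial (Fin t) := Fin.nontrivial_iff_two_le.mpr (by omega)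
      exact exists_ne i
    have h1 : classInner (fun _ => 1 : G → ℂ) (indFun C (tw (rep i).1 ψ) -
        indFun C (tw (rep j).1 ψ)) = 0 := by
      rw [H18.CharOrtho.inner_sub_right, frobenius' C _ (isClassFunction_const 1),
        frobenius' C _ (isClassFunction_const 1)]
      have h5 : ∀ k, classInner (fun _ => 1 : C → ℂ) (tw (rep k).1 ψ) = 0 := by
        intro k
        apply inner_irr_ne isIrrCharacter_one (isIrr_tw _ hψ)
        intro h
        apply (rep k).2.2
        apply D.eq_of_P (rep k).2.1 (fun _ _ => rfl)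
        intro y hy
        have h6 := congrFun h ⟨y, D.hPC hy⟩
        have h7 := congrFun h 1
        simp only [tw, map_one, Units.val_one, one_mul] at h6 h7
        rw [hP y hy, ← h7, mul_one] at h6
        exact Units.ext h6.symm
      show classInner (fun _ => 1 : C → ℂ) (tw (rep i).1 ψ) -
        classInner (fun _ => 1 : C → ℂ) (tw (rep j).1 ψ) = 0
      rw [h5, h5, sub_zero]
    rw [hXd, H18.CharOrtho.inner_smul_right, H18.CharOrtho.inner_sub_right, ← hi,
      inner_irr_self (hX i), inner_irr_ne (hX i) (hX j) (fun h => hj (hXinj h).symm)] at h1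
    apply hε0
    have h8 : conj ε = 0 := by simpa using h1
    simpa using h8
  -- the claim
  have claim : ∃ i0 : Fin t, ∀ k, k ≠ i0 → classInner φ (al (rep k)) = 0 := by
    by_cases hψ1 : ψ = fun _ => 1
    · refine ⟨i1, fun k hk => ?_⟩
      rw [hi1]
      apply norm_arg (al_gen _) (al_one _) e (D.al_norm hrep k he) (D.inner_one_al hrep k)
        (Finset.univ.erase k) X hX hXinj hX1 hdeg
      · rw [Finset.card_erase_of_mem (Finset.mem_univ _), Finset.card_univ, Fintype.card_fin]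
        omega
      · rw [Finset.card_erase_of_mem (Finset.mem_univ _), Finset.card_univ, Fintype.card_fin]
        omega
      · intro i hi j hj
        have h1 := D.al_fam_one hrep i j k (Finset.ne_of_mem_erase hi) (Finset.ne_of_mem_erase hj)
        rw [← hψ1, hXd, H18.CharOrtho.inner_smul_left, H18.CharOrtho.inner_sub_left] at h1
        exact sub_eq_zero.mp ((mul_eq_zero.mp h1).resolve_left hε0)
      · exact Finset.mem_erase.mpr ⟨hk.symm, Finset.mem_univ _⟩
    · refine ⟨i1, fun k _ => ?_⟩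
      rw [hi1]
      apply norm_arg (al_gen _) (al_one _) e (D.al_norm hrep k he) (D.inner_one_al hrep k)
        Finset.univ X hX hXinj hX1 hdeg
      · rw [Finset.card_univ, Fintype.card_fin]
        omega
      · rw [Finset.card_univ, Fintype.card_fin]
        omega
      · intro i _ j _
        have h1 := D.al_fam_ne (rep := rep) hψ hP hψ1 i j k
        rw [hXd, H18.CharOrtho.inner_smul_left, H18.CharOrtho.inner_sub_left] at h1
        exact sub_eq_zero.mp ((mul_eq_zero.mp h1).resolve_left hε0)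
      · exact Finset.mem_univ _
  obtain ⟨i0, hi0⟩ := claim
  refine ⟨i0, ?_⟩
  have hmul : ∀ f : LA C r, cl f ≠ i0 →
      classInner (fun c : C => φ c) (tw f.1 (fun _ => 1)) = b := by
    intro f hf
    obtain ⟨n, hn⟩ := hcl f
    have h1 := hi0 (cl f) hf
    rw [inner_al hcf, hb, sub_eq_zero] at h1
    rw [h1, ← D.mult_conj hcf n (tw (rep (cl f)).1 (fun _ => 1))]
    congr 1
    conv_lhs => rw [hn]
    rfl
  -- degree bound
  let S : Finset (Option (LA C r)) :=
    insert none ((Finset.univ.filter (fun f : LA C r => cl f ≠ i0)).map ⟨some, Option.some_injective _⟩)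
  have hScard : S.card = 1 + (Finset.univ.filter (fun f : LA C r => cl f ≠ i0)).card := by
    rw [Finset.card_insert_of_notMem (by simp), Finset.card_map, add_comm]
  rw [← hScard]
  let Θ : Option (LA C r) → C → ℂ := fun o => match o with
    | none => fun _ => 1
    | some f => tw f.1 (fun _ => 1)
  apply deg_ge hφC S Θ
  · intro o _
    match o with
    | none => exact isIrrCharacter_one
    | some f => exact isIrr_tw _ isIrrCharacter_one
  · intro o _ o' _ h
    match o, o' with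
    | none, none => rfl
    | none, some f =>
      exfalso
      apply f.2.2
      ext c
      have := congrFun h c
      simp only [Θ, tw, mul_one] at this
      exact this.symm
    | some f, none =>
      exfalso
      apply f.2.2
      ext c
      have := congrFun h c
      simp only [Θ, tw, mul_one] at this
      exact this
    | some f, some g =>
      congr 1
      exact D.tw_inj isIrrCharacter_one D.PK_one D.PK_one h
  · intro o ho
    match o with
    | none => exact ⟨b, le_refl _, hb⟩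
    | some f =>
      refine ⟨b, le_refl _, hmul f ?_⟩
      have h1 := Finset.mem_insert.mp ho
      rcases h1 with h1 | h1
      · exact absurd h1 (by simp)
      · simpa using h1
  · exact hd

end Data

end H98.BrLeo
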