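import Cfsg.Agent.Lib.H98.BrLeoC

/-!
# Irreducible characters of small degree
-/

set_option autoImplicit false
open Cfsg Representation
open scoped ComplexConjugate

namespace H98.BrLeo

open H18.CharBasic H18.CharOrtho H18.CharInd H18.CharQuot

universe u v

/-- a character with `|χ| = χ(1)` everywhere is linear -/
theorem deg_one_of_norm {G : Type u} [Group G] [Fintype G] {χ : G → ℂ} (hχ : IsIrrCharacter G χ)
    {x : ℕ} (hx : χ 1 = x) (h : ∀ g, χ g * conj (χ g) = (x : ℂ) ^ 2) : x = 1 := by
  have h1 := inner_irr_self hχ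
  rw [classInner] at h1
  simp only [h] at h1
  rw [Finset.sum_const, Finset.card_univ, nsmul_eq_mul, Nat.card_eq_fintype_card, ← mul_assoc,
    inv_mul_cancel₀ (by exact_mod_cast Fintype.card_ne_zero), one_mul] at h1
  have h2 : x ^ 2 = 1 := by exact_mod_cast h1
  exact (Nat.pow_eq_one.mp h2).resolve_right (by norm_num)

theorem eq_one_of_const {G : Type u} [Group G] [Fintype G] {χ : G → ℂ} (hχ : IsIrrCharacter G χ)
    (h : ∀ g, χ g = χ 1) : χ = fun _ => 1 := by
  obtain ⟨d, hd0, hd⟩ := exists_degree_pos hχ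
  have h1 : d = 1 := by
    apply deg_one_of_norm hχ hd
    intro g
    rw [h g, hd]
    simp [sq]
  funext g
  rw [h g, hd, h1]
  simp

namespace Data

variable {G : Type u} [Group G] [Fintype G] {P C N : Subgroup G} [Fintype C] [Fintype N] {r : ℕ}
  (D : Data P C N r)

include D in
/-- If no proper normal subgroup contains `P` then there are no irreducible characters `χ` with
`1 < χ(1)`, `χ(1)² < |P| - 1`. -/
theorem main {χ : G → ℂ} (hχ : IsIrrCharacter G χ) {x : ℕ} (hx : χ 1 = x) (hx2 : 2 ≤ x)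
    (hxm : x ^ 2 + 1 < Nat.card P) (hno : ∀ K : Subgroup G, K.Normal → P ≤ K → K = ⊤) : False := by
  classical
  have hfin : Finite (LA C r) := by
    have hf : Finite (P →* ℂˣ) := by
      have h1 : Nat.card (P →* ℂˣ) = (commutator P).index := card_hom_eq_index
      exact Nat.finite_of_card_ne_zero (by rw [h1]; exact Subgroup.index_ne_zero_of_finite)
    apply Finite.of_injective (fun f : LA C r => f.1.comp (Subgroup.inclusion D.hPC))
    intro f g hfg
    apply Subtype.ext
    apply D.eq_of_P f.2.1 g.2.1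
    intro x hx
    exact DFunLike.congr_fun hfg ⟨x, hx⟩
  haveI : Fintype (LA C r) := Fintype.ofFinite _
  have hcard := D.card_LA
  rw [Nat.card_eq_fintype_card] at hcard
  set m := Fintype.card (LA C r) with hm
  have hxm' : x ^ 2 < m := by omega
  obtain ⟨t, rep, cl, hcl, hrep, hfib⟩ := D.exists_reps
  obtain ⟨e, he⟩ : ∃ e, e * Nat.card C = Nat.card N := by
    obtain ⟨e, he⟩ := Subgroup.card_dvd_of_le D.hCN
    exact ⟨e, by rw [he, mul_comm]⟩
  have hC0 : 0 < Nat.card C := Nat.card_pos
  have hfib' : ∀ i, (Finset.univ.filter (fun f : LA C r => cl f = i)).card = e := by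
    intro i
    have h1 := hfib i
    rw [← he] at h1
    have h2 := Nat.eq_of_mul_eq_mul_right hC0 h1
    rw [← h2, Nat.card_eq_fintype_card, Fintype.card_subtype]
  have hmt : m = t * e := by
    have h1 := Finset.card_eq_sum_card_fiberwise (s := (Finset.univ : Finset (LA C r)))
      (t := (Finset.univ : Finset (Fin t))) (f := cl) (fun _ _ => Finset.mem_coe.mpr (Finset.mem_univ _))
    rw [Finset.card_univ, ← hm, Finset.sum_congr rfl (fun i _ => hfib' i), Finset.sum_const,
      Finset.card_univ, Fintype.card_fin, smul_eq_mul] at h1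
    exact h1
  have hχc := isCharacter_of_isIrr hχ
  have hχC : IsCharacter C (fun c : C => χ c) := isCharacter_restrict C hχc
  -- P is not in the kernel of a nonprincipal irreducible character
  have hker : ∀ φ : G → ℂ, IsIrrCharacter G φ → φ ≠ (fun _ => 1) → ∃ y ∈ P, φ y ≠ φ 1 := by
    intro φ hφ hφ1
    by_contra hcon
    push Not at hcon
    apply hφ1
    apply eq_one_of_const hφ
    intro g
    have h1 := hno (kerSub φ (isCharacter_of_isIrr hφ)) inferInstance (fun y hy => hcon y hy)
    have h2 : g ∈ kerSub φ (isCharacter_of_isIrr hφ) := by rw [h1]; exact Subgroup.mem_top g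
    exact h2
  have hχ1 : χ ≠ fun _ => 1 := by
    intro h
    have := congrFun h 1
    rw [hx] at this
    have h2 : x = 1 := by exact_mod_cast this
    omega
  obtain ⟨y, hy, hyne⟩ := hker χ hχ hχ1
  obtain ⟨i0, ψ0, hψ0, hP0, hm0⟩ := D.exists_mult_rep hcl hχc hy hyne
  obtain ⟨s, hs⟩ := inner_char_natCast hχC hχC
  have hfam := D.deg_family hcl hχc hψ0 hP0 (Finset.univ.filter (fun f : LA C r => cl f = i0))
    (fun f hf => by rw [(Finset.mem_filter.mp hf).2]; exact hm0)
  rw [hfib'] at hfam
  have hex : e ≤ x := hfam.1 x hx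
  have hes : e ≤ s := hfam.2 s hs
  have he2 : e * e ≤ x ^ 2 := by nlinarith
  have hte : e + 1 ≤ t := by
    by_contra hcon
    push Not at hcon
    have : t ≤ e := by omega
    have : t * e ≤ e * e := Nat.mul_le_mul_right e this
    omega
  have ht3 : 3 ≤ t := by
    by_contra hcon
    push Not at hcon
    have h1 : e ≤ 1 := by omega
    have h2 : t * e ≤ 2 * 1 := Nat.mul_le_mul (by omega) h1
    have h3 : 4 ≤ x ^ 2 := by nlinarith
    omega
  -- the character χ χ̄
  let Θ : G → ℂ := χ * fun g => conj (χ g)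
  have hΘ : IsCharacter G Θ := isCharacter_mul hχc (isCharacter_conj hχc)
  have hΘ1 : Θ 1 = (x : ℂ) ^ 2 := by
    show χ 1 * conj (χ 1) = _
    rw [hx]; simp [sq]
  have := Fintype.ofFinite (IrrCharacter G)
  choose a ha using fun φ : IrrCharacter G => inner_char_natCast hΘ (isCharacter_of_isIrr φ.2)
  choose b hb using fun φ : IrrCharacter G => inner_char_natCast
    (isCharacter_restrict C (isCharacter_of_isIrr φ.2)) (isCharacter_one (G := C))
  choose d hd0 hd using fun φ : IrrCharacter G => exists_degree_pos φ.2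
  let O : IrrCharacter G := ⟨fun _ => 1, isIrrCharacter_one⟩
  have haO : a O = 1 := by
    have h1 := ha O
    have h2 : classInner Θ (fun _ => 1) = classInner χ χ := by
      simp only [classInner, Θ, Pi.mul_apply, map_one, mul_one]
    rw [show ((O : IrrCharacter G) : G → ℂ) = fun _ => 1 from rfl, h2, inner_irr_self hχ] at h1
    exact_mod_cast h1.symm
  have hbO : b O = 1 := by
    have h1 := hb O
    have h2 : classInner (fun _ => 1 : C → ℂ) (fun _ => 1) = 1 := inner_irr_self isIrrCharacter_one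
    have h3 : (1 : ℂ) = b O := by rw [← h1]; exact h2.symm
    exact_mod_cast h3.symm
  have hdO : d O = 1 := by
    have h1 := hd O
    have h2 : (1 : ℂ) = d O := h1
    exact_mod_cast h2.symm
  have hexp := mem_classFun_expand (isClassFunction_of_isCharacter hΘ)
  -- degree equation
  have hsum1 : x ^ 2 = ∑ φ : IrrCharacter G, a φ * d φ := by
    have h2 := congrFun hexp 1
    rw [hΘ1] at h2
    simp only [Finset.sum_apply, Pi.smul_apply, smul_eq_mul, hd, ha] at h2
    exact_mod_cast h2
  -- restriction equation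
  have hsum2 : s = ∑ φ : IrrCharacter G, a φ * b φ := by
    have h1 : classInner (fun c : C => Θ c) (fun _ => 1) = s := by
      rw [← hs]
      simp only [classInner, Θ, Pi.mul_apply, map_one, mul_one]
    have h2 : (fun c : C => Θ c) =
        ∑ φ : IrrCharacter G, (a φ : ℂ) • (fun c : C => (φ : G → ℂ) c) := by
      funext c
      have h3 := congrFun hexp c
      rw [h3]
      simp only [Finset.sum_apply, Pi.smul_apply, smul_eq_mul, ha]
    rw [h2, inner_sum_left] at h1
    simp only [H18.CharOrtho.inner_smul_left, hb] at h1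
    exact_mod_cast h1.symm
  rw [← Finset.add_sum_erase _ _ (Finset.mem_univ O), haO, hdO] at hsum1
  rw [← Finset.add_sum_erase _ _ (Finset.mem_univ O), haO, hbO] at hsum2
  -- key inequality
  have hkey : ∀ φ ∈ Finset.univ.erase O, a φ * (b φ * (1 + (m - e))) ≤ a φ * d φ := by
    intro φ hφ
    rcases Nat.eq_zero_or_pos (a φ) with h0 | h0
    · rw [h0]; simp
    rcases Nat.eq_zero_or_pos (b φ) with h1 | h1
    · rw [h1]; simp
    apply Nat.mul_le_mul_left
    have hφ1 : (φ : G → ℂ) ≠ fun _ => 1 := fun h => Finset.ne_of_mem_erase hφ (Subtype.ext h)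
    obtain ⟨z, hz, hzne⟩ := hker φ φ.2 hφ1
    have hdm : d φ < m := by
      have h2 : a φ * d φ ≤ ∑ φ ∈ Finset.univ.erase O, a φ * d φ :=
        Finset.single_le_sum (f := fun φ => a φ * d φ) (fun _ _ => Nat.zero_le _) hφ
      have h3 : d φ ≤ a φ * d φ := Nat.le_mul_of_pos_left _ h0
      omega
    obtain ⟨i1, hi1⟩ := D.key hcl hrep he ht3 hte φ.2 (hd φ) hdm hz hzne (hb φ) h1.ne'
    have h4 : (Finset.univ.filter (fun f : LA C r => cl f ≠ i1)).card = m - e := by
      have h5 := Finset.card_filter_add_card_filter_not (s := (Finset.univ : Finset (LA C r)))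
        (fun f : LA C r => cl f = i1)
      rw [hfib', Finset.card_univ, ← hm] at h5
      have h6 : (Finset.univ.filter (fun f : LA C r => cl f ≠ i1)).card =
        (Finset.univ.filter (fun f : LA C r => ¬ cl f = i1)).card := rfl
      omega
    rw [h4] at hi1
    exact hi1
  have hle : (∑ φ ∈ Finset.univ.erase O, a φ * b φ) * (1 + (m - e)) ≤
      ∑ φ ∈ Finset.univ.erase O, a φ * d φ := by
    rw [Finset.sum_mul]
    apply Finset.sum_le_sum
    intro φ hφ
    rw [mul_assoc]
    exact hkey φ hφ
  set A := ∑ φ ∈ Finset.univ.erase O, a φ * b φ with hA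
  have hem : e ≤ m := by nlinarith
  by_cases hA0 : A = 0
  · -- χ restricted to C is irreducible
    have hs1 : s = 1 := by omega
    have hirr : IsIrrCharacter C (fun c : C => χ c) := isIrr_of_norm_one hχC (by rw [hs, hs1]; simp)
    have hPk : ∀ y ∈ P, Θ y = Θ 1 := by
      intro y hy
      obtain ⟨ω, hω⟩ := D.exists_omega hirr
      have h1 := hω y hy
      have h2 : χ y = (ω ⟨y, hy⟩ : ℂ) * χ 1 := h1
      show χ y * conj (χ y) = χ 1 * conj (χ 1)
      rw [h2, map_mul, ← hom_inv_eq_conj]
      rw [map_inv]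
      have h3 : ((ω ⟨y, hy⟩ : ℂˣ) : ℂ) * ((ω ⟨y, hy⟩)⁻¹ : ℂˣ) = 1 := by
        rw [← Units.val_mul, mul_inv_cancel]; simp
      calc ((ω ⟨y, hy⟩ : ℂˣ) : ℂ) * χ 1 * ((((ω ⟨y, hy⟩)⁻¹ : ℂˣ) : ℂ) * conj (χ 1)) =
          (((ω ⟨y, hy⟩ : ℂˣ) : ℂ) * ((ω ⟨y, hy⟩)⁻¹ : ℂˣ)) * (χ 1 * conj (χ 1)) := by ring
        _ = _ := by rw [h3, one_mul]
    have h4 := hno (kerSub Θ hΘ) inferInstance (fun y hy => hPk y hy)
    have h5 : x = 1 := by
      apply deg_one_of_norm hχ hx
      intro g
      have h6 : g ∈ kerSub Θ hΘ := by rw [h4]; exact Subgroup.mem_top g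
      have h7 : Θ g = Θ 1 := h6
      rw [hΘ1] at h7
      exact h7
    omega
  · -- arithmetic contradiction
    have hB : 1 + A * (1 + (m - e)) ≤ x ^ 2 := by rw [hsum1]; omega
    rcases Nat.lt_or_ge A 2 with h2 | h2
    · have h3 : A = 1 := by omega
      rw [h3] at hB
      omega
    · have h3 : 2 * (1 + (m - e)) ≤ A * (1 + (m - e)) := Nat.mul_le_mul_right _ h2
      have h4 : 2 * e ≤ e * e + 1 := by nlinarith [sq_nonneg ((e : ℤ) - 1)]
      omega

end Data

end H98.BrLeo
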