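import Cfsg.Agent.Lib.H98.BrLeo

/-!
# Brauer–Leonard: faithful characters of small degree
-/

set_option autoImplicit false
open Cfsg Representation
open scoped ComplexConjugate

namespace H98.BrLeo

open H18.CharBasic H18.CharOrtho H18.CharInd H18.CharQuot

universe u v

theorem normal_of_faithful (p : ℕ) [Fact p.Prime] : ∀ (n : ℕ) (G : Type u) [Group G] [Finite G]
    (_ : Nat.card G = n) (P : Sylow p G)
    (_ : ∀ x ∈ (P : Subgroup G), x ≠ 1 → Subgroup.centralizer ({x} : Set G) =
      Subgroup.centralizer ((P : Subgroup G) : Set G))
    (χ : G → ℂ) (_ : IsCharacter G χ) (_ : ∀ g : G, χ g = χ 1 → g = 1)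
    (_ : Cfsg.charDegree χ ^ 2 + 1 < Nat.card P), (P : Subgroup G).Normal := by
  intro n
  induction n using Nat.strong_induction_on with
  | _ n ih =>
    intro G _ _ hn P hstar χ hχ hf hdeg
    classical
    have := Fintype.ofFinite G
    by_cases hno : ∃ K : Subgroup G, K.Normal ∧ K ≠ ⊤ ∧ (P : Subgroup G) ≤ K
    · obtain ⟨K, hK, hKt, hPK⟩ := hno
      have hlt : Nat.card K < n := by
        rw [← hn]
        rcases lt_or_eq_of_le (Subgroup.card_le_card_group K) with h | h
        · exact h
        · exact absurd (Subgroup.eq_top_of_card_eq K h) hKt
      let P' : Sylow p K := P.subtype hPK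
      have hP'coe : (P' : Subgroup K) = (P : Subgroup G).subgroupOf K := rfl
      have hcardP : Nat.card P' = Nat.card P :=
        Nat.card_congr (Subgroup.subgroupOfEquivOfLe hPK).toEquiv
      have hstar' : ∀ x ∈ (P' : Subgroup K), x ≠ 1 → Subgroup.centralizer ({x} : Set K) =
          Subgroup.centralizer ((P' : Subgroup K) : Set K) := by
        intro x hx hx1
        have hxP : (x : G) ∈ (P : Subgroup G) := hx
        have hx1' : (x : G) ≠ 1 := fun h => hx1 (Subtype.ext h)
        have h1 := hstar x hxP hx1'
        apply le_antisymm
        · intro z hz
          rw [Subgroup.mem_centralizer_singleton_iff] at hz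
          have h2 : (z : G) ∈ Subgroup.centralizer ({(x : G)} : Set G) := by
            rw [Subgroup.mem_centralizer_singleton_iff]
            exact congrArg Subtype.val hz
          rw [h1] at h2
          rw [Subgroup.mem_centralizer_iff]
          intro y hy
          exact Subtype.ext (Subgroup.mem_centralizer_iff.mp h2 y hy)
        · intro z hz
          rw [Subgroup.mem_centralizer_singleton_iff]
          exact (Subgroup.mem_centralizer_iff.mp hz x hx).symm
      have hnorm := ih _ hlt K rfl P' hstar' (fun k : K => χ k) (isCharacter_restrict K hχ)
        (fun k hk => Subtype.ext (hf k hk)) (by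
          rw [hcardP]
          exact hdeg)
      have hchar : (P' : Subgroup K).Characteristic := Sylow.characteristic_of_normal P' hnorm
      have h2 : ((P' : Subgroup K).map K.subtype).Normal :=
        ConjAct.normal_of_characteristic_of_normal
      have h3 : (P' : Subgroup K).map K.subtype = (P : Subgroup G) := by
        rw [hP'coe, Subgroup.subgroupOf_map_subtype, inf_eq_left.mpr hPK]
      rwa [h3] at h2
    · have := Fintype.ofFinite (IrrCharacter G)
      choose a ha using fun φ : IrrCharacter G => inner_char_natCast hχ (isCharacter_of_isIrr φ.2)
      choose d hd0 hd using fun φ : IrrCharacter G => exists_degree_pos φ.2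
      obtain ⟨x, hx⟩ := exists_degree hχ
      have hexp := mem_classFun_expand (isClassFunction_of_isCharacter hχ)
      have hsum : x = ∑ φ : IrrCharacter G, a φ * d φ := by
        have h2 := congrFun hexp 1
        rw [hx] at h2
        simp only [Finset.sum_apply, Pi.smul_apply, smul_eq_mul, hd, ha] at h2
        exact_mod_cast h2
      rw [charDegree_eq hx] at hdeg
      have hlin : ∀ φ : IrrCharacter G, a φ ≠ 0 → d φ = 1 := by
        intro φ h0
        by_cases hφ : (φ : G → ℂ) = fun _ => 1
        · have := hd φ
          rw [hφ] at this
          have h5 : (1 : ℂ) = d φ := this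
          exact_mod_cast h5.symm
        · have hle : d φ ≤ x := by
            have h2 : a φ * d φ ≤ ∑ φ : IrrCharacter G, a φ * d φ :=
              Finset.single_le_sum (f := fun φ => a φ * d φ) (fun _ _ => Nat.zero_le _)
                (Finset.mem_univ φ)
            have h3 : d φ ≤ a φ * d φ := Nat.le_mul_of_pos_left _ (Nat.pos_of_ne_zero h0)
            omega
          rcases irr_case p P hstar φ.2 hφ (by
            rw [charDegree_eq (hd φ)]
            have : d φ ^ 2 ≤ x ^ 2 := Nat.pow_le_pow_left hle 2
            omega) with h | h
          · exact absurd h hno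
          · rw [charDegree_eq (hd φ)] at h
            exact h.2
      have hcomm : ∀ g h : G, g * h = h * g := by
        intro g h
        have h1 : χ (g * h * g⁻¹ * h⁻¹) = χ 1 := by
          rw [hexp, Finset.sum_apply, Finset.sum_apply]
          refine Finset.sum_congr rfl fun φ _ => ?_
          rw [Pi.smul_apply, Pi.smul_apply]
          by_cases h0 : a φ = 0
          · rw [ha, h0]; simp
          · have h2 := hd φ
            rw [hlin φ h0] at h2
            obtain ⟨lam, hlam⟩ := exists_hom_of_degree_one (isCharacter_of_isIrr φ.2)
              (by rw [h2]; simp)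
            have hlam' : ∀ g, (φ : G → ℂ) g = (lam g : ℂ) := fun g => by
              first
              | exact (congrFun hlam g).symm
              | exact congrFun hlam g
              | exact hlam g
            rw [hlam', hlam']
            congr 2
            rw [map_mul, map_mul, map_mul, map_inv, map_inv, map_one, mul_comm (lam g) (lam h),
              mul_inv_cancel_right, mul_inv_cancel]
        have h2 := hf _ h1
        calc g * h = (g * h * g⁻¹ * h⁻¹) * h * g := by group
          _ = h * g := by rw [h2, one_mul]
      exact ⟨fun x hx g => by rw [hcomm g x, mul_inv_cancel_right]; exact hx⟩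

end H98.BrLeo
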