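import Mathlib

/-!
Eigenspaces of elements normalising a group of extraspecial type: linear algebra.
-/

set_option autoImplicit false

namespace H98.ExEA

open Module

section
variable {F V : Type*} [Field F] [AddCommGroup V] [Module F V] [FiniteDimensional F V]

theorem sum_of_supIndep {ι : Type*} [DecidableEq ι] (s : Finset ι) (W : ι → Submodule F V) (h : s.SupIndep W) :
    ∑ i ∈ s, finrank F (W i) = finrank F (s.sup W : Submodule F V) := by
  induction s using Finset.induction_on with
  | empty => rw [Finset.sum_empty, Finset.sup_empty, finrank_bot]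
  | insert a s ha ih =>
    rw [Finset.sum_insert ha, Finset.sup_insert, ih (h.subset (Finset.subset_insert _ _))]
    have h1 : Disjoint (W a) (s.sup W) := h (Finset.subset_insert _ _) (Finset.mem_insert_self _ _) ha
    have h2 := Submodule.finrank_sup_add_finrank_inf_eq (W a) (s.sup W)
    rw [disjoint_iff.mp h1, finrank_bot, add_zero] at h2
    exact h2.symm

theorem finrank_sup_le {ι : Type*} [DecidableEq ι] (s : Finset ι) (W : ι → Submodule F V) :
    finrank F (s.sup W : Submodule F V) ≤ ∑ i ∈ s, finrank F (W i) := by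
  induction s using Finset.induction_on with
  | empty => simp
  | insert a s ha ih =>
    rw [Finset.sum_insert ha, Finset.sup_insert]
    have h2 := Submodule.finrank_sup_add_finrank_inf_eq (W a) (s.sup W)
    omega

theorem ind_sum (f : Module.End F V) (W : Submodule F V) (S : Finset F) :
    ∑ μ ∈ S, finrank F (W ⊓ Module.End.eigenspace f μ : Submodule F V) ≤ finrank F W := by
  classical
  have h1 : iSupIndep (fun μ => W ⊓ Module.End.eigenspace f μ) :=
    (Module.End.eigenspaces_iSupIndep f).mono (fun μ => inf_le_right)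
  rw [sum_of_supIndep S _ (h1.supIndep' S)]
  exact Submodule.finrank_mono (Finset.sup_le fun μ _ => inf_le_left)

theorem fiber_sum {ι : Type*} [DecidableEq F] (f : Module.End F V) (W : Submodule F V) (K : Finset ι) (μ : ι → F) (c : ℕ)
    (h : ∀ a, (K.filter (fun k => μ k = a)).card ≤ c) :
    ∑ k ∈ K, finrank F (W ⊓ Module.End.eigenspace f (μ k) : Submodule F V) ≤ c * finrank F W := by
  rw [Finset.sum_comp (fun a => finrank F (W ⊓ Module.End.eigenspace f a : Submodule F V)) μ]
  calc _ ≤ ∑ b ∈ K.image μ, c * finrank F (W ⊓ Module.End.eigenspace f b : Submodule F V) := by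
        apply Finset.sum_le_sum
        intro b _
        rw [smul_eq_mul]
        exact Nat.mul_le_mul_right _ (h b)
    _ ≤ _ := by
        rw [← Finset.mul_sum]
        exact Nat.mul_le_mul_left _ (ind_sum f W _)

theorem two_mul_le (U W : Submodule F V) (d : ℕ) (hU : finrank F U = d) (hW : finrank F W = d) :
    2 * d ≤ finrank F V + finrank F (U ⊓ W : Submodule F V) := by
  have h2 := Submodule.finrank_sup_add_finrank_inf_eq U W
  have h3 : finrank F (U ⊔ W : Submodule F V) ≤ finrank F V := Submodule.finrank_le _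
  omega

theorem geom {ζ : F} {r : ℕ} (h1 : ζ ^ r = 1) (h2 : ζ ≠ 1) : ∑ j ∈ Finset.range r, ζ ^ j = 0 := by
  have h3 := geom_sum_mul ζ r
  rw [h1, sub_self] at h3
  exact (mul_eq_zero.mp h3).resolve_right (sub_ne_zero.mpr h2)

theorem diag (f : Module.End F V) {r : ℕ} (hr : 0 < r) (hf : f ^ r = 1) {ω : F} (hω : IsPrimitiveRoot ω r)
    (U : Submodule F V) (hU : ∀ v ∈ U, f v ∈ U) :
    finrank F U ≤ ∑ j ∈ Finset.range r, finrank F (U ⊓ Module.End.eigenspace f (ω ^ j) : Submodule F V) := by
  haveI : NeZero r := ⟨hr.ne'⟩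
  haveI := hω.neZero'
  have hr0 : (r : F) ≠ 0 := NeZero.ne _
  have hω0 : ω ≠ 0 := hω.ne_zero hr.ne'
  refine le_trans (Submodule.finrank_mono ?_) (finrank_sup_le _ _)
  intro v hv
  have hfi : ∀ i, (f ^ i) v ∈ U := by
    intro i
    induction i with
    | zero => exact hv
    | succ i ih => rw [pow_succ', Module.End.mul_apply]; exact hU _ ih
  let p : ℕ → V := fun j => (r : F)⁻¹ • ∑ i ∈ Finset.range r, ((ω ^ j) ^ i)⁻¹ • (f ^ i) v
  have hp : ∀ j, p j ∈ U ⊓ Module.End.eigenspace f (ω ^ j) := by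
    intro j
    refine ⟨U.smul_mem _ (U.sum_mem fun i _ => U.smul_mem _ (hfi i)), ?_⟩
    rw [SetLike.mem_coe, Module.End.mem_eigenspace_iff]
    show f ((r : F)⁻¹ • ∑ i ∈ Finset.range r, ((ω ^ j) ^ i)⁻¹ • (f ^ i) v) = ω ^ j • ((r : F)⁻¹ • ∑ i ∈ Finset.range r, ((ω ^ j) ^ i)⁻¹ • (f ^ i) v)
    rw [map_smul, smul_comm (ω ^ j)]
    congr 1
    rw [map_sum, Finset.smul_sum]
    have h1 : ∀ i, f (((ω ^ j) ^ i)⁻¹ • (f ^ i) v) = ω ^ j • (((ω ^ j) ^ (i + 1))⁻¹ • (f ^ (i + 1)) v) := by
      intro i
      rw [map_smul, smul_smul, pow_succ' f, Module.End.mul_apply]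
      congr 1
      rw [pow_succ]
      have : (ω ^ j) ≠ 0 := pow_ne_zero _ hω0
      field_simp
    rw [Finset.sum_congr rfl (fun i _ => h1 i), ← Finset.smul_sum, ← Finset.smul_sum]
    congr 1
    have h2 := Finset.sum_range_succ (fun i => ((ω ^ j) ^ i)⁻¹ • (f ^ i) v) r
    have h3 := Finset.sum_range_succ' (fun i => ((ω ^ j) ^ i)⁻¹ • (f ^ i) v) r
    rw [h2] at h3
    have h4 : ((ω ^ j) ^ r)⁻¹ • (f ^ r) v = ((ω ^ j) ^ 0)⁻¹ • (f ^ 0) v := by
      rw [← pow_mul, mul_comm j r, pow_mul, hω.pow_eq_one, one_pow, hf]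
      simp
    rw [h4] at h3
    exact (add_right_cancel h3).symm
  have hsum : v = ∑ j ∈ Finset.range r, p j := by
    show v = ∑ j ∈ Finset.range r, ((r : F)⁻¹ • ∑ i ∈ Finset.range r, ((ω ^ j) ^ i)⁻¹ • (f ^ i) v)
    rw [← Finset.smul_sum, Finset.sum_comm]
    have h1 : ∀ i ∈ Finset.range r, ∑ j ∈ Finset.range r, ((ω ^ j) ^ i)⁻¹ • (f ^ i) v = if i = 0 then (r : F) • v else 0 := by
      intro i hi
      rw [← Finset.sum_smul]
      have h2 : ∀ j, ((ω ^ j) ^ i)⁻¹ = ((ω ^ i)⁻¹) ^ j := by
        intro j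
        rw [inv_pow, ← pow_mul, ← pow_mul, mul_comm]
      rw [Finset.sum_congr rfl (fun j _ => h2 j)]
      split_ifs with h0
      · subst h0
        simp
      · rw [geom, zero_smul]
        · rw [inv_pow, ← pow_mul, mul_comm, pow_mul, hω.pow_eq_one, one_pow, inv_one]
        · intro h
          rw [inv_eq_one] at h
          have := (hω.pow_eq_one_iff_dvd i).mp h
          rw [Finset.mem_range] at hi
          exact absurd (Nat.le_of_dvd (by omega) this) (by omega)
    rw [Finset.sum_congr rfl h1, Finset.sum_ite_eq' , if_pos (Finset.mem_range.mpr hr), smul_smul, inv_mul_cancel₀ hr0, one_smul]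
  rw [hsum]
  exact Submodule.sum_mem _ fun j hj => (Finset.le_sup (f := fun j => U ⊓ Module.End.eigenspace f (ω ^ j)) hj) (hp j)

end

section
variable {F V G : Type*} [Field F] [AddCommGroup V] [Module F V] [FiniteDimensional F V] [Group G]
  (ρ : G →* Module.End F V)

theorem rho_inv (g : G) (v : V) : ρ g⁻¹ (ρ g v) = v := by
  rw [← Module.End.mul_apply, ← map_mul, inv_mul_cancel, map_one]; rfl

theorem rho_inv' (g : G) (v : V) : ρ g (ρ g⁻¹ v) = v := by
  rw [← Module.End.mul_apply, ← map_mul, mul_inv_cancel, map_one]; rfl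

theorem rho_injective (g : G) : Function.Injective (ρ g) := by
  intro x y hxy
  rw [← rho_inv ρ g x, hxy, rho_inv]

theorem finrank_le_conj (g x : G) (l : F) :
    finrank F (Module.End.eigenspace (ρ (x⁻¹ * g * x)) l) ≤ finrank F (Module.End.eigenspace (ρ g) l) := by
  have h : ∀ v ∈ Module.End.eigenspace (ρ (x⁻¹ * g * x)) l, ρ x v ∈ Module.End.eigenspace (ρ g) l := by
    intro v hv
    rw [Module.End.mem_eigenspace_iff] at hv ⊢
    have h1 : g * x = x * (x⁻¹ * g * x) := by group
    rw [← Module.End.mul_apply, ← map_mul, h1, map_mul, Module.End.mul_apply, hv, map_smul]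
  refine LinearMap.finrank_le_finrank_of_injective (f := (ρ x).restrict h) ?_
  intro a b hab
  exact Subtype.ext (rho_injective ρ x (congrArg Subtype.val hab))

theorem finrank_conj (g x : G) (l : F) :
    finrank F (Module.End.eigenspace (ρ (x⁻¹ * g * x)) l) = finrank F (Module.End.eigenspace (ρ g) l) := by
  apply le_antisymm (finrank_le_conj ρ g x l)
  have := finrank_le_conj ρ (x⁻¹ * g * x) x⁻¹ l
  have h1 : x⁻¹⁻¹ * (x⁻¹ * g * x) * x⁻¹ = g := by group
  rwa [h1] at this

/-- eigenspaces of `y` are small if `z` multiplies `y` by a primitive root of unity -/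
theorem small {y z : G} {c : F} {r : ℕ} (hc : IsPrimitiveRoot c r) (hyz : ∀ v, ρ (z⁻¹ * y * z) v = c • ρ y v) {l : F} (hl : l ≠ 0)
    [DecidableEq F] :
    r * finrank F (Module.End.eigenspace (ρ y) l) ≤ finrank F V := by
  rcases Nat.eq_zero_or_pos r with hr | hr
  · subst hr; simp
  have hc0 : c ≠ 0 := hc.ne_zero hr.ne'
  have h1 : ∀ k : ℕ, finrank F (Module.End.eigenspace (ρ y) ((c ^ k)⁻¹ * l)) = finrank F (Module.End.eigenspace (ρ y) l) := by
    intro k
    induction k with
    | zero => rw [pow_zero, inv_one, one_mul]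
    | succ k ih =>
      rw [← ih, ← finrank_conj ρ y z ((c ^ k)⁻¹ * l)]
      have key : Module.End.eigenspace (ρ y) ((c ^ (k + 1))⁻¹ * l) = Module.End.eigenspace (ρ (z⁻¹ * y * z)) ((c ^ k)⁻¹ * l) := by
       ext v
       rw [Module.End.mem_eigenspace_iff, Module.End.mem_eigenspace_iff, hyz, pow_succ]
       constructor
       · intro h
         rw [h, smul_smul]
         congr 1
         field_simp
       · intro h
         have h2 : ρ y v = c⁻¹ • (c • ρ y v) := by rw [smul_smul, inv_mul_cancel₀ hc0, one_smul]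
         rw [h2, h, smul_smul]
         congr 1
         field_simp
      rw [key]
  have h2 := fiber_sum (ρ y) (⊤ : Submodule F V) (Finset.range r) (fun k => (c ^ k)⁻¹ * l) 1 (by
    intro a
    rw [Finset.card_le_one]
    intro i hi j hj
    simp only [Finset.mem_filter, Finset.mem_range] at hi hj
    have h3 := hi.2.trans hj.2.symm
    have h4 := inv_injective (mul_right_cancel₀ hl h3)
    exact hc.pow_inj hi.1 hj.1 h4)
  have h3 : ∀ k ∈ Finset.range r, finrank F (⊤ ⊓ Module.End.eigenspace (ρ y) ((c ^ k)⁻¹ * l) : Submodule F V) =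
      finrank F (Module.End.eigenspace (ρ y) l) := by
    intro k _
    rw [top_inf_eq, h1]
  rw [Finset.sum_congr rfl h3, Finset.sum_const, Finset.card_range, smul_eq_mul, one_mul, finrank_top] at h2
  exact h2

end

end H98.ExEA
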