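import Mathlib
import Cfsg.Agent.Lib.H98.ExEA

/-!
Eigenspaces of elements normalising a group of extraspecial type: the case of equal primes.
-/

set_option autoImplicit false

namespace H98.ExEB

open Module H98.ExEA

theorem pow_eq_iff {F : Type*} [Field F] {ω : F} {r : ℕ} [Fact r.Prime] (hω : IsPrimitiveRoot ω r) (a b : ℕ) :
    ω ^ a = ω ^ b ↔ (a : ZMod r) = (b : ZMod r) := by
  rw [ZMod.natCast_eq_natCast_iff]
  have hr : 0 < r := (Fact.out : r.Prime).pos
  have h1 : ∀ n : ℕ, ω ^ n = ω ^ (n % r) := by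
    intro n
    have := pow_mod_orderOf ω n
    rw [← hω.eq_orderOf] at this
    exact this.symm
  rw [h1 a, h1 b]
  constructor
  · intro h
    exact hω.pow_inj (Nat.mod_lt _ hr) (Nat.mod_lt _ hr) h
  · intro h
    rw [show a % r = b % r from h]

theorem fib_lin {r : ℕ} [hr : Fact r.Prime] {j k k' : ℕ} (hj0 : 0 < j) (hj : j < r) (hk : k < r) (hk' : k' < r)
    (h : ((j * k : ℕ) : ZMod r) = ((j * k' : ℕ) : ZMod r)) : k = k' := by
  push_cast at h
  have hj' : (j : ZMod r) ≠ 0 := by
    intro h0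
    rw [ZMod.natCast_eq_zero_iff] at h0
    exact absurd (Nat.le_of_dvd hj0 h0) (by omega)
  have h1 := mul_left_cancel₀ hj' h
  rw [ZMod.natCast_eq_natCast_iff] at h1
  exact Nat.ModEq.eq_of_lt_of_lt h1 hk hk'

theorem fib_quad {r : ℕ} [hr : Fact r.Prime] (h2 : r ≠ 2) {j k k' : ℕ} (hk : k < r) (hk' : k' < r) (hne : k ≠ k')
    (h : ((k.choose 2 + j * k : ℕ) : ZMod r) = ((k'.choose 2 + j * k' : ℕ) : ZMod r)) :
    (k : ZMod r) + k' = 1 - 2 * j := by
  have h2' : (2 : ZMod r) ≠ 0 := by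
    intro h0
    have : ((2 : ℕ) : ZMod r) = 0 := by exact_mod_cast h0
    rw [ZMod.natCast_eq_zero_iff] at this
    exact h2 ((Nat.prime_dvd_prime_iff_eq hr.out Nat.prime_two).mp this)
  have hc : ∀ n : ℕ, (2 : ZMod r) * (n.choose 2 : ℕ) = (n : ZMod r) * (n - 1) := by
    intro n
    rcases n with _ | n
    · simp
    · have h1 : 2 * (n + 1).choose 2 = (n + 1) * n := by
        rw [Nat.choose_two_right, Nat.add_sub_cancel]
        exact Nat.mul_div_cancel' (by have := Nat.even_mul_succ_self n; rw [mul_comm]; exact this.two_dvd)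
      have h3 : (((2 * (n + 1).choose 2 : ℕ)) : ZMod r) = (((n + 1) * n : ℕ) : ZMod r) := by rw [h1]
      push_cast at h3 ⊢
      rw [h3]; ring
  push_cast at h
  have h3 : (2 : ZMod r) * (k.choose 2 : ℕ) + 2 * (j * k) = 2 * (k'.choose 2 : ℕ) + 2 * (j * k') := by
    linear_combination 2 * h
  rw [hc, hc] at h3
  have h4 : ((k : ZMod r) - k') * (k + k' - 1 + 2 * j) = 0 := by linear_combination h3
  have h5 : (k : ZMod r) - k' ≠ 0 := by
    intro h0
    rw [sub_eq_zero, ZMod.natCast_eq_natCast_iff] at h0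
    exact hne (Nat.ModEq.eq_of_lt_of_lt h0 hk hk')
  have h6 := (mul_eq_zero.mp h4).resolve_left h5
  linear_combination h6

variable {F V G : Type*} [Field F] [AddCommGroup V] [Module F V] [FiniteDimensional F V] [Group G]
  (ρ : G →* Module.End F V)

theorem heis_aux [DecidableEq F] {r : ℕ} [hr : Fact r.Prime] {x y g : G} {c ω l : F} (hω : IsPrimitiveRoot ω r)
    (hxg : x⁻¹ * g * x = y * g) (hyg : y * g = g * y) (hy : ρ y ^ r = 1)
    (hc : ∀ v, ρ (x⁻¹ * y * x) v = c • ρ y v) (hc0 : c ≠ 0) (hl : l ≠ 0) :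
    r * finrank F (Module.End.eigenspace (ρ g) l) ≤
      ∑ j ∈ Finset.range r, ∑ k ∈ Finset.range r,
        finrank F (Module.End.eigenspace (ρ y) (ω ^ j) ⊓ Module.End.eigenspace (ρ g) (l * (c ^ (k.choose 2) * (ω ^ (j * k)))⁻¹) : Submodule F V) := by
  have hr0 : 0 < r := hr.out.pos
  have hω0 : ω ≠ 0 := hω.ne_zero hr0.ne'
  have hyxk : ∀ k : ℕ, ∀ v, ρ (x⁻¹ * y ^ k * x) v = c ^ k • ρ (y ^ k) v := by
    intro k
    induction k with
    | zero => intro v; simp
    | succ k ih =>
      intro v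
      have h1 : x⁻¹ * y ^ (k + 1) * x = (x⁻¹ * y ^ k * x) * (x⁻¹ * y * x) := by
        rw [pow_succ]; group
      rw [h1, map_mul, Module.End.mul_apply, hc, map_smul, ih, smul_smul, ← pow_succ', ← Module.End.mul_apply, ← map_mul, ← pow_succ]
  have hgk : ∀ k : ℕ, ∀ v, ρ ((x ^ k)⁻¹ * g * x ^ k) v = c ^ (k.choose 2) • ρ (y ^ k * g) v := by
    intro k
    induction k with
    | zero => intro v; simp
    | succ k ih =>
      intro v
      have h1 : (x ^ (k + 1))⁻¹ * g * x ^ (k + 1) = x⁻¹ * ((x ^ k)⁻¹ * g * x ^ k) * x := by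
        rw [pow_succ]; simp only [mul_inv_rev, mul_assoc]
      have h2 : x⁻¹ * (y ^ k * g) * x = (x⁻¹ * y ^ k * x) * (y * g) := by
        rw [← hxg]; simp only [mul_assoc, mul_inv_cancel_left]
      rw [h1, map_mul, Module.End.mul_apply, map_mul, Module.End.mul_apply, ih, map_smul, ← Module.End.mul_apply,
        ← Module.End.mul_apply, ← map_mul, ← map_mul, h2, map_mul, Module.End.mul_apply, hyxk, smul_smul, ← Module.End.mul_apply,
        ← map_mul, ← mul_assoc, ← pow_succ, ← pow_add]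
      congr 2
      rw [Nat.choose_succ_succ' k 1, Nat.choose_one_right, add_comm]
  have hd : ∀ k : ℕ, finrank F (Module.End.eigenspace (ρ g) l) ≤
      ∑ j ∈ Finset.range r, finrank F (Module.End.eigenspace (ρ y) (ω ^ j) ⊓
        Module.End.eigenspace (ρ g) (l * (c ^ (k.choose 2) * (ω ^ (j * k)))⁻¹) : Submodule F V) := by
    intro k
    rw [← finrank_conj ρ g (x ^ k) l]
    have hyk : ∀ v, ρ y (ρ ((x ^ k)⁻¹ * g * x ^ k) v) = ρ ((x ^ k)⁻¹ * g * x ^ k) (ρ y v) := by
      intro v
      rw [hgk, hgk, map_smul]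
      congr 1
      rw [← Module.End.mul_apply, ← Module.End.mul_apply, ← map_mul, ← map_mul]
      congr 2
      rw [mul_assoc, ← hyg, ← mul_assoc, ← mul_assoc, ← pow_succ, ← pow_succ']
    refine (diag (ρ y) hr0 hy hω (Module.End.eigenspace (ρ ((x ^ k)⁻¹ * g * x ^ k)) l) ?_).trans ?_
    · intro v hv
      rw [Module.End.mem_eigenspace_iff] at hv ⊢
      rw [← hyk, hv, map_smul]
    · apply Finset.sum_le_sum
      intro j _
      have key : Module.End.eigenspace (ρ ((x ^ k)⁻¹ * g * x ^ k)) l ⊓ Module.End.eigenspace (ρ y) (ω ^ j) =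
          Module.End.eigenspace (ρ y) (ω ^ j) ⊓ Module.End.eigenspace (ρ g) (l * (c ^ (k.choose 2) * (ω ^ (j * k)))⁻¹) := by
        ext v
        rw [Submodule.mem_inf, Submodule.mem_inf, and_comm]
        apply and_congr_right
        intro hv
        rw [Module.End.mem_eigenspace_iff] at hv ⊢
        rw [Module.End.mem_eigenspace_iff, hgk]
        have h1 : ∀ i : ℕ, ρ (y ^ i) v = (ω ^ (j * i)) • v := by
          intro i
          induction i with
          | zero => simp
          | succ i ih =>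
            rw [pow_succ, map_mul, Module.End.mul_apply, hv, map_smul, ih, smul_smul]
            congr 1
            ring
        have h2 : y ^ k * g = g * y ^ k := ((show Commute y g from hyg).pow_left k).eq
        rw [h2, map_mul, Module.End.mul_apply, h1, map_smul, smul_smul]
        have h3 : c ^ k.choose 2 * ω ^ (j * k) ≠ 0 := mul_ne_zero (pow_ne_zero _ hc0) (pow_ne_zero _ hω0)
        constructor
        · intro h
          rw [mul_comm, mul_smul, ← h, smul_smul, inv_mul_cancel₀ h3, one_smul]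
        · intro h
          rw [h, smul_smul]
          congr 1
          field_simp
      rw [key]
  calc r * finrank F (Module.End.eigenspace (ρ g) l) = ∑ k ∈ Finset.range r, finrank F (Module.End.eigenspace (ρ g) l) := by
        rw [Finset.sum_const, Finset.card_range, smul_eq_mul]
    _ ≤ _ := Finset.sum_le_sum (fun k _ => hd k)
    _ = _ := Finset.sum_comm

theorem sum_eig_le [DecidableEq F] {r : ℕ} {y : G} {ω : F} (hω : IsPrimitiveRoot ω r) :
    ∑ j ∈ Finset.range r, finrank F (Module.End.eigenspace (ρ y) (ω ^ j)) ≤ finrank F V := by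
  have h2 := fiber_sum (ρ y) (⊤ : Submodule F V) (Finset.range r) (fun k => ω ^ k) 1 (by
    intro a
    rw [Finset.card_le_one]
    intro i hi j hj
    simp only [Finset.mem_filter, Finset.mem_range] at hi hj
    exact hω.pow_inj hi.1 hj.1 (hi.2.trans hj.2.symm))
  have h3 : ∀ k ∈ Finset.range r, finrank F (⊤ ⊓ Module.End.eigenspace (ρ y) (ω ^ k) : Submodule F V) =
      finrank F (Module.End.eigenspace (ρ y) (ω ^ k)) := by
    intro k _
    rw [top_inf_eq]
  rw [Finset.sum_congr rfl h3, one_mul, finrank_top] at h2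
  exact h2

/-- the commuting case -/
theorem heis_lin [DecidableEq F] {r : ℕ} [hr : Fact r.Prime] {x y g : G} {ω l : F} (hω : IsPrimitiveRoot ω r)
    (hxg : x⁻¹ * g * x = y * g) (hyg : y * g = g * y) (hy : ρ y ^ r = 1)
    (hxy : x⁻¹ * y * x = y) (hl : l ≠ 0) (hV0 : r * finrank F (Module.End.eigenspace (ρ y) 1) ≤ finrank F V) :
    r * finrank F (Module.End.eigenspace (ρ g) l) ≤ 2 * finrank F V := by
  have hω0 : ω ≠ 0 := hω.ne_zero hr.out.ne_zero
  have h1 := heis_aux ρ (c := 1) hω hxg hyg hy (by intro v; rw [hxy, one_smul]) one_ne_zero hl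
  refine h1.trans ?_
  have h2 : ∀ j ∈ Finset.range r, ∑ k ∈ Finset.range r,
        finrank F (Module.End.eigenspace (ρ y) (ω ^ j) ⊓ Module.End.eigenspace (ρ g) (l * (1 ^ (k.choose 2) * (ω ^ (j * k)))⁻¹) : Submodule F V)
        ≤ finrank F (Module.End.eigenspace (ρ y) (ω ^ j)) + (if j = 0 then r * finrank F (Module.End.eigenspace (ρ y) 1) else 0) := by
    intro j hj
    rw [Finset.mem_range] at hj
    split_ifs with h0
    · subst h0
      rw [pow_zero]
      refine le_trans ?_ (Nat.le_add_left _ _)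
      calc _ ≤ ∑ k ∈ Finset.range r, finrank F (Module.End.eigenspace (ρ y) 1) :=
            Finset.sum_le_sum fun k _ => Submodule.finrank_mono inf_le_left
        _ = _ := by rw [Finset.sum_const, Finset.card_range, smul_eq_mul]
    · rw [add_zero]
      have h3 := fiber_sum (ρ g) (Module.End.eigenspace (ρ y) (ω ^ j)) (Finset.range r)
        (fun k => l * (1 ^ (k.choose 2) * (ω ^ (j * k)))⁻¹) 1 (by
        intro a
        rw [Finset.card_le_one]
        intro i hi i' hi'
        simp only [Finset.mem_filter, Finset.mem_range] at hi hi'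
        have h4 := inv_injective (mul_left_cancel₀ hl (hi.2.trans hi'.2.symm))
        rw [one_pow, one_pow, one_mul, one_mul, pow_eq_iff hω] at h4
        exact fib_lin (Nat.pos_of_ne_zero h0) hj hi.1 hi'.1 h4)
      rwa [one_mul] at h3
  refine (Finset.sum_le_sum h2).trans ?_
  rw [Finset.sum_add_distrib, Finset.sum_ite_eq', if_pos (Finset.mem_range.mpr hr.out.pos)]
  have := sum_eig_le ρ (y := y) hω
  omega

/-- the extraspecial case -/
theorem heis_quad [DecidableEq F] {r : ℕ} [hr : Fact r.Prime] (h2 : r ≠ 2) {x y g : G} {ω l : F} (hω : IsPrimitiveRoot ω r)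
    (hxg : x⁻¹ * g * x = y * g) (hyg : y * g = g * y) (hy : ρ y ^ r = 1)
    (hc : ∀ v, ρ (x⁻¹ * y * x) v = ω • ρ y v) (hl : l ≠ 0) :
    r * finrank F (Module.End.eigenspace (ρ g) l) ≤ 2 * finrank F V := by
  have hω0 : ω ≠ 0 := hω.ne_zero hr.out.ne_zero
  have h1 := heis_aux ρ (c := ω) hω hxg hyg hy hc hω0 hl
  refine h1.trans ?_
  have h2 : ∀ j ∈ Finset.range r, ∑ k ∈ Finset.range r,
        finrank F (Module.End.eigenspace (ρ y) (ω ^ j) ⊓ Module.End.eigenspace (ρ g) (l * (ω ^ (k.choose 2) * (ω ^ (j * k)))⁻¹) : Submodule F V)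
        ≤ 2 * finrank F (Module.End.eigenspace (ρ y) (ω ^ j)) := by
    intro j hj
    rw [Finset.mem_range] at hj
    refine fiber_sum (ρ g) (Module.End.eigenspace (ρ y) (ω ^ j)) (Finset.range r)
        (fun k => l * (ω ^ (k.choose 2) * (ω ^ (j * k)))⁻¹) 2 ?_
    intro a
    by_contra hcon
    rw [not_le, Finset.two_lt_card] at hcon
    obtain ⟨k₁, hk₁, k₂, hk₂, k₃, hk₃, h12, h13, h23⟩ := hcon
    simp only [Finset.mem_filter, Finset.mem_range] at hk₁ hk₂ hk₃
    have e2 := inv_injective (mul_left_cancel₀ hl (hk₁.2.trans hk₂.2.symm))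
    have e3 := inv_injective (mul_left_cancel₀ hl (hk₁.2.trans hk₃.2.symm))
    rw [← pow_add, ← pow_add, pow_eq_iff hω] at e2 e3
    have f2 := fib_quad h2 hk₁.1 hk₂.1 h12 e2
    have f3 := fib_quad h2 hk₁.1 hk₃.1 h13 e3
    rw [← f3] at f2
    have f4 := add_left_cancel f2
    rw [ZMod.natCast_eq_natCast_iff] at f4
    exact h23 (Nat.ModEq.eq_of_lt_of_lt f4 hk₂.1 hk₃.1)
  refine (Finset.sum_le_sum h2).trans ?_
  rw [← Finset.mul_sum]
  exact Nat.mul_le_mul_left _ (sum_eig_le ρ (y := y) hω)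

end H98.ExEB
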