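import Mathlib

/-!
Eigenspaces of elements normalising a group of extraspecial type: group theory.
-/

set_option autoImplicit false
open scoped commutatorElement

namespace H98.ExEC

theorem coprime_comm {A : Type*} [CommGroup A] (γ : A →* A) {r p : ℕ} (hr : r.Prime) (hp : p.Prime) (hp2 : p ≠ 2)
    (hrp : r ≠ p) (hAr : ∀ a : A, a ^ r = 1) (hγ : ∀ a, γ^[p] a = a)
    (h : ∀ a, γ (γ (γ (a⁻¹ * γ a)) * (a⁻¹ * γ a)⁻¹) = γ (γ (a⁻¹ * γ a)) * (a⁻¹ * γ a)⁻¹) (a : A) : γ a = a := by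
  have L1 : ∀ a, γ (a⁻¹ * γ a) = a⁻¹ * γ a → γ a = a := by
    intro a ha
    set b := a⁻¹ * γ a with hb
    have h1 : γ a = a * b := by rw [hb, mul_inv_cancel_left]
    have h2 : ∀ k, γ^[k] a = a * b ^ k := by
      intro k
      induction k with
      | zero => simp
      | succ k ih => rw [Function.iterate_succ_apply', ih, map_mul, map_pow, ha, h1, pow_succ', mul_assoc]
    have h3 := h2 p
    rw [hγ] at h3
    have h4 : b ^ p = 1 := by
      have := (mul_eq_left.mp h3.symm)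
      exact this
    have h5 : b = 1 := by
      have h6 : orderOf b ∣ Nat.gcd r p := Nat.dvd_gcd (orderOf_dvd_of_pow_eq_one (hAr b)) (orderOf_dvd_of_pow_eq_one h4)
      rw [(Nat.coprime_primes hr hp).mpr hrp] at h6
      exact orderOf_eq_one_iff.mp (Nat.dvd_one.mp h6)
    rw [h1, h5, mul_one]
  have L2 : ∀ b, γ (γ b) = b → γ b = b := by
    intro b hb
    obtain ⟨m, hm⟩ := hp.odd_of_ne_two hp2
    have h1 : ∀ k, γ^[2 * k] b = b := by
      intro k
      induction k with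
      | zero => rfl
      | succ k ih => rw [show 2 * (k + 1) = 2 * k + 1 + 1 by ring, Function.iterate_succ_apply', Function.iterate_succ_apply', ih, hb]
    have h2 := hγ b
    rw [hm] at h2
    change γ^[(2 * m).succ] b = b at h2
    rw [Function.iterate_succ_apply', h1] at h2
    exact h2
  have h1 : (a⁻¹ * γ (γ a))⁻¹ * γ (a⁻¹ * γ (γ a)) = γ (γ (a⁻¹ * γ a)) * (a⁻¹ * γ a)⁻¹ := by
    simp only [map_mul, map_inv, mul_inv_rev, inv_inv]
    rw [mul_comm (γ (γ a))⁻¹ a]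
    simp only [mul_comm, mul_left_comm, mul_assoc]
  have h2 : γ (a⁻¹ * γ (γ a)) = a⁻¹ * γ (γ a) := by
    apply L1
    rw [h1]
    exact h a
  have h3 : γ (γ (a⁻¹ * γ a)) * (a⁻¹ * γ a)⁻¹ = 1 := by
    rw [← h1, h2, inv_mul_cancel]
  exact L1 a (L2 _ (mul_inv_eq_one.mp h3))

theorem select {Q : Type*} [Group Q] [Finite Q] {A : Subgroup Q} {g : Q} {r : ℕ} (hr : r.Prime) (hA : IsPGroup r A)
    (hg : g ^ r = 1) (hgA : ∀ a ∈ A, g * a * g⁻¹ ∈ A) (a : Q) (ha : a ∈ A) (hne : a⁻¹ * (g * a * g⁻¹) ≠ 1) :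
    ∃ a ∈ A, a⁻¹ * (g * a * g⁻¹) ≠ 1 ∧ (a⁻¹ * (g * a * g⁻¹))⁻¹ * (g * (a⁻¹ * (g * a * g⁻¹)) * g⁻¹) = 1 := by
  haveI : Fact r.Prime := ⟨hr⟩
  have hgp : IsPGroup r (Subgroup.zpowers g) := by
    rintro ⟨y, hy⟩
    obtain ⟨j, rfl⟩ := Subgroup.mem_zpowers_iff.mp hy
    refine ⟨1, Subtype.ext ?_⟩
    show (g ^ j) ^ r ^ 1 = 1
    rw [pow_one, ← zpow_natCast, ← zpow_mul, mul_comm, zpow_mul, zpow_natCast, hg, one_zpow]
  have hpow : ∀ k : ℕ, ∀ a ∈ A, g ^ k * a * (g ^ k)⁻¹ ∈ A := by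
    intro k
    induction k with
    | zero => intro a ha; simpa using ha
    | succ k ih =>
      intro a ha
      have := hgA _ (ih a ha)
      rw [pow_succ']
      simpa [mul_assoc] using this
  have hginv : g⁻¹ = g ^ (r - 1) := by
    rw [inv_eq_iff_mul_eq_one, ← pow_succ', Nat.sub_add_cancel hr.one_le, hg]
  have hnorm : Subgroup.zpowers g ≤ Subgroup.normalizer (A : Set Q) := by
    rw [Subgroup.zpowers_le, Subgroup.mem_normalizer_iff]
    intro h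
    refine ⟨hgA h, fun h2 => ?_⟩
    have h3 := hpow (r - 1) _ h2
    rw [← hginv] at h3
    have : g⁻¹ * (g * h * g⁻¹) * g⁻¹⁻¹ = h := by group
    rwa [this] at h3
  have hP : IsPGroup r (Subgroup.zpowers g ⊔ A : Subgroup Q) := hgp.to_sup_of_normal_right' hA hnorm
  set P : Subgroup Q := Subgroup.zpowers g ⊔ A with hPdef
  haveI : Group.IsNilpotent P := hP.isNilpotent
  let D : Q → Q := fun a => a⁻¹ * (g * a * g⁻¹)
  have hDA : ∀ a ∈ A, D a ∈ A := fun a ha => A.mul_mem (A.inv_mem ha) (hgA a ha)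
  have hDk : ∀ k, D^[k] a ∈ A := by
    intro k
    induction k with
    | zero => exact ha
    | succ k ih => rw [Function.iterate_succ_apply']; exact hDA _ ih
  have hgP : g ∈ P := Subgroup.mem_sup_left (Subgroup.mem_zpowers g)
  have hAP : A ≤ P := le_sup_right
  have hl : ∀ k, (⟨D^[k] a, hAP (hDk k)⟩ : P) ∈ (⊤ : Subgroup P).lowerCentralSeries k := by
    intro k
    induction k with
    | zero => exact Subgroup.mem_top _
    | succ k ih =>
      have h1 : (⟨D^[k + 1] a, hAP (hDk (k + 1))⟩ : P) = ⁅(⟨D^[k] a, hAP (hDk k)⟩ : P)⁻¹, (⟨g, hgP⟩ : P)⁆ := by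
        apply Subtype.ext
        show D^[k + 1] a = (D^[k] a)⁻¹ * g * (D^[k] a)⁻¹⁻¹ * g⁻¹
        rw [Function.iterate_succ_apply', inv_inv]
        show (D^[k] a)⁻¹ * (g * (D^[k] a) * g⁻¹) = _
        simp only [mul_assoc]
      rw [h1]
      exact Subgroup.commutator_mem_commutator (Subgroup.inv_mem _ ih) (Subgroup.mem_top _)
  obtain ⟨n, hn⟩ := Subgroup.nilpotent_iff_lowerCentralSeries.mp (inferInstance : Group.IsNilpotent P)
  have hex : ∃ k, D^[k] a = 1 := by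
    refine ⟨n, ?_⟩
    have := hl n
    rw [hn, Subgroup.mem_bot] at this
    exact congrArg Subtype.val this
  classical
  have hk := Nat.find_spec hex
  have hmin := fun m => @Nat.find_min _ _ hex m
  set k := Nat.find hex with hkdef
  have hk2 : 2 ≤ k := by
    rcases Nat.lt_or_ge k 2 with h | h
    · exfalso
      have : k = 0 ∨ k = 1 := by omega
      rcases this with h0 | h0
      · rw [h0] at hk
        have h1 : a = 1 := hk
        apply hne
        rw [h1]; simp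
      · rw [h0] at hk
        exact hne hk
    · exact h
  obtain ⟨m, hm⟩ : ∃ m, k = m + 2 := ⟨k - 2, by omega⟩
  refine ⟨D^[m] a, hDk m, ?_, ?_⟩
  · intro h
    apply hmin (m + 1) (by omega)
    rw [Function.iterate_succ_apply']
    exact h
  · rw [hm, Function.iterate_succ_apply', Function.iterate_succ_apply'] at hk
    exact hk

section
variable {G : Type*} [Group G] {M Z : Subgroup G}

theorem comm_mul_left (hZ : Z ≤ Subgroup.center G) {a b c : G} (h : ⁅b, c⁆ ∈ Z) :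
    ⁅a * b, c⁆ = ⁅a, c⁆ * ⁅b, c⁆ := by
  have h1 := Subgroup.mem_center_iff.mp (hZ h)
  have h2 : ⁅a * b, c⁆ = a * ⁅b, c⁆ * (c * a⁻¹ * c⁻¹) := by
    simp only [commutatorElement_def, mul_inv_rev]
    group
  rw [h2, h1 a, mul_assoc, ← h1]
  simp only [commutatorElement_def, mul_assoc]

theorem comm_mul_right (hZ : Z ≤ Subgroup.center G) {a b c : G} (h : ⁅a, b⁆ ∈ Z) (h' : ⁅a, c⁆ ∈ Z) :
    ⁅a, b * c⁆ = ⁅a, b⁆ * ⁅a, c⁆ := by
  have h1 := Subgroup.mem_center_iff.mp (hZ h')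
  have h2 : ⁅a, b * c⁆ = ⁅a, b⁆ * (b * ⁅a, c⁆ * b⁻¹) := by
    simp only [commutatorElement_def, mul_inv_rev]
    group
  rw [h2, h1 b, mul_inv_cancel_right]

theorem coprime_case {g : G} {r p : ℕ} (hr : r.Prime) (hp : p.Prime) (hp2 : p ≠ 2)
    (hrp : r ≠ p) (hZ : Z ≤ Subgroup.center G) (hZM : Z ≤ M) (hMM : ∀ x ∈ M, ∀ y ∈ M, ⁅x, y⁆ ∈ Z)
    (hMr : ∀ x ∈ M, x ^ r ∈ Z) (hC : ∀ x ∈ M, (∀ y ∈ M, x * y = y * x) → x ∈ Z)
    (hg : ∀ x ∈ M, g * x * g⁻¹ ∈ M) (hg' : ∀ x ∈ M, g⁻¹ * x * g ∈ M) (hgp : g ^ p = 1)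
    (hyp : ∀ x ∈ M, (x⁻¹ * (g * x * g⁻¹)) * (g * (x⁻¹ * (g * x * g⁻¹)) * g⁻¹) =
      (g * (x⁻¹ * (g * x * g⁻¹)) * g⁻¹) * (x⁻¹ * (g * x * g⁻¹))) :
    ∀ x ∈ M, x⁻¹ * (g * x * g⁻¹) ∈ Z := by
  set γ : MulAut G := MulAut.conj g with hγ
  have hγM : ∀ x ∈ M, γ x ∈ M := hg
  have hγM' : ∀ x ∈ M, γ⁻¹ x ∈ M := by
    intro x hx
    have := hg' x hx
    rw [hγ, MulAut.conj_inv_apply]
    exact this
  let D : G → G := fun x => x⁻¹ * γ x
  have hDM : ∀ x ∈ M, D x ∈ M := fun x hx => M.mul_mem (M.inv_mem hx) (hγM x hx)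
  have hc : ∀ a b, ⁅a, b⁆ ∈ Z → ⁅γ a, γ b⁆ = ⁅a, b⁆ := by
    intro a b h
    rw [← map_commutatorElement, hγ, MulAut.conj_apply, Subgroup.mem_center_iff.mp (hZ h) g, mul_inv_cancel_right]
  have hfl : ∀ a b c, b ∈ M → c ∈ M → ⁅a * b, c⁆ = ⁅a, c⁆ * ⁅b, c⁆ := fun a b c hb hc =>
    comm_mul_left hZ (hMM b hb c hc)
  have hfr : ∀ a b c, a ∈ M → b ∈ M → c ∈ M → ⁅a, b * c⁆ = ⁅a, b⁆ * ⁅a, c⁆ := fun a b c ha hb hc =>
    comm_mul_right hZ (hMM a ha b hb) (hMM a ha c hc)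
  have hcomm : ∀ a b, a ∈ Z → a * b = b * a := fun a b ha => (Subgroup.mem_center_iff.mp (hZ ha) b).symm
  have hz1 : ∀ k c : G, k ∈ Z → ⁅k, c⁆ = 1 := fun k c hk => commutatorElement_eq_one_iff_mul_comm.mpr (hcomm k c hk)
  have hz2 : ∀ k c : G, k ∈ Z → ⁅c, k⁆ = 1 := fun k c hk => commutatorElement_eq_one_iff_mul_comm.mpr (hcomm k c hk).symm
  have hself : ∀ x ∈ M, ⁅D x, γ (D x)⁆ = 1 := fun x hx => commutatorElement_eq_one_iff_mul_comm.mpr (hyp x hx)
  have hpol : ∀ x ∈ M, ∀ z ∈ M, ⁅D x, γ (D z)⁆ * ⁅D z, γ (D x)⁆ = 1 := by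
    intro x hx z hz
    have hk : ⁅(D x)⁻¹, z⁻¹⁆ ∈ Z := hMM _ (M.inv_mem (hDM x hx)) _ (M.inv_mem hz)
    have h1 : D (x * z) = D x * D z * ⁅(D x)⁻¹, z⁻¹⁆ := by
      have h2 : D (x * z) = D x * ⁅(D x)⁻¹, z⁻¹⁆ * D z := by
        show (x * z)⁻¹ * γ (x * z) = x⁻¹ * γ x * ⁅(x⁻¹ * γ x)⁻¹, z⁻¹⁆ * (z⁻¹ * γ z)
        rw [map_mul, commutatorElement_def]
        group
      rw [h2, mul_assoc (D x), hcomm _ (D z) hk, ← mul_assoc (D x)]
    have hγk : γ ⁅(D x)⁻¹, z⁻¹⁆ ∈ Z := by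
      rw [hγ, MulAut.conj_apply, ← hcomm _ g hk, mul_inv_cancel_right]
      exact hk
    have h3 := hself (x * z) (M.mul_mem hx hz)
    have m1 := hDM x hx
    have m2 := hDM z hz
    have m3 := hγM _ m1
    have m4 := hγM _ m2
    rw [h1, map_mul, map_mul, hfl _ _ _ (hZM hk) (M.mul_mem (M.mul_mem m3 m4) (hZM hγk)), hz1 _ _ hk, mul_one,
      hfr _ _ _ (M.mul_mem m1 m2) (M.mul_mem m3 m4) (hZM hγk), hz2 _ _ hγk, mul_one, hfl _ _ _ m2 (M.mul_mem m3 m4),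
      hfr _ _ _ m1 m3 m4, hfr _ _ _ m2 m3 m4, hself x hx, hself z hz, one_mul, mul_one] at h3
    exact h3
  have hst : ∀ x ∈ M, ∀ z ∈ M, ⁅D x, γ (γ (D z)) * (D z)⁻¹⁆ = 1 := by
    intro x' hx' z hz
    set x := γ⁻¹ x' with hxdef
    have hx : x ∈ M := hγM' x' hx'
    have hDx : D x' = γ (D x) := by
      show x'⁻¹ * γ x' = γ (x⁻¹ * γ x)
      have : γ x = x' := by rw [hxdef]; exact MulAut.apply_inv_self G γ x'
      rw [map_mul, map_inv, this]
    have m1 := hDM x hx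
    have m2 := hDM z hz
    have m3 := hγM _ m1
    have m4 := hγM _ m2
    have m5 := hγM _ m4
    rw [hDx, hfr _ _ _ m3 m5 (M.inv_mem m2), hc _ _ (hMM _ m1 _ m4)]
    have h1 : ⁅γ (D x), (D z)⁻¹⁆ = ⁅γ (D x), D z⁆⁻¹ := by
      have := hfr _ _ _ m3 m2 (M.inv_mem m2)
      rw [mul_inv_cancel, commutatorElement_one_right] at this
      exact (inv_eq_of_mul_eq_one_right this.symm).symm
    rw [h1, commutatorElement_inv]
    exact hpol x hx z hz
  have hfix : ∀ z ∈ M, (γ (γ (D z)) * (D z)⁻¹)⁻¹ * γ (γ (γ (D z)) * (D z)⁻¹) ∈ Z := by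
    intro z hz
    set u := γ (γ (D z)) * (D z)⁻¹ with hu
    have hum : u ∈ M := M.mul_mem (hγM _ (hγM _ (hDM z hz))) (M.inv_mem (hDM z hz))
    have hγu := hγM _ hum
    apply hC _ (M.mul_mem (M.inv_mem hum) hγu)
    intro w hw
    set x := γ⁻¹ w with hxdef
    have hx : x ∈ M := hγM' w hw
    have hwx : γ x = w := by rw [hxdef]; exact MulAut.apply_inv_self G γ w
    symm
    rw [← commutatorElement_eq_one_iff_mul_comm, ← hwx]
    have m3 := hγM _ hx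
    have h1 := hst x hx z hz
    rw [← hu] at h1
    have h2 : ⁅x⁻¹, u⁆ * ⁅γ x, u⁆ = 1 := by
      rw [← hfl _ _ _ m3 hum]; exact h1
    have h3 : ⁅x⁻¹, u⁆ = ⁅x, u⁆⁻¹ := by
      have := hfl x⁻¹ x u hx hum
      rw [inv_mul_cancel, commutatorElement_one_left] at this
      exact eq_inv_of_mul_eq_one_left this.symm
    have h4 : ⁅γ x, u⁻¹⁆ = ⁅γ x, u⁆⁻¹ := by
      have := hfr _ _ _ m3 hum (M.inv_mem hum)
      rw [mul_inv_cancel, commutatorElement_one_right] at this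
      exact (inv_eq_of_mul_eq_one_right this.symm).symm
    rw [hfr _ _ _ m3 (M.inv_mem hum) hγu, h4, hc _ _ (hMM _ hx _ hum)]
    rw [h3, inv_mul_eq_one] at h2
    rw [h2, inv_mul_cancel]
  -- pass to the quotient
  haveI hZn : Z.Normal := ⟨fun n hn h => by rw [← hcomm n h hn, mul_inv_cancel_right]; exact hn⟩
  let A : Subgroup (G ⧸ Z) := M.map (QuotientGroup.mk' Z)
  have hAcomm : ∀ a b : A, a * b = b * a := by
    rintro ⟨_, x, hx, rfl⟩ ⟨_, y, hy, rfl⟩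
    apply Subtype.ext
    show (QuotientGroup.mk' Z) x * (QuotientGroup.mk' Z) y = (QuotientGroup.mk' Z) y * (QuotientGroup.mk' Z) x
    rw [← commutatorElement_eq_one_iff_mul_comm, ← map_commutatorElement]
    exact (QuotientGroup.eq_one_iff _).mpr (hMM x hx y hy)
  letI : CommGroup A := { (inferInstance : Group A) with mul_comm := hAcomm }
  let γ' : A →* A :=
    { toFun := fun a => ⟨(QuotientGroup.mk' Z g) * a.1 * (QuotientGroup.mk' Z g)⁻¹, by
        obtain ⟨_, x, hx, rfl⟩ := a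
        exact ⟨g * x * g⁻¹, hg x hx, by simp⟩⟩
      map_one' := by apply Subtype.ext; simp
      map_mul' := by
        intro a b
        apply Subtype.ext
        show (QuotientGroup.mk' Z g) * (a.1 * b.1) * (QuotientGroup.mk' Z g)⁻¹ =
          ((QuotientGroup.mk' Z g) * a.1 * (QuotientGroup.mk' Z g)⁻¹) * ((QuotientGroup.mk' Z g) * b.1 * (QuotientGroup.mk' Z g)⁻¹)
        group }
  let mkA : ∀ x, x ∈ M → A := fun x hx => ⟨QuotientGroup.mk' Z x, x, hx, rfl⟩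
  have hsurj : ∀ a : A, ∃ x, ∃ hx : x ∈ M, mkA x hx = a := by
    rintro ⟨_, x, hx, rfl⟩
    exact ⟨x, hx, rfl⟩
  have hmkγ : ∀ x (hx : x ∈ M), γ' (mkA x hx) = mkA (γ x) (hγM x hx) := by
    intro x hx
    apply Subtype.ext
    show (QuotientGroup.mk' Z g) * (QuotientGroup.mk' Z x) * (QuotientGroup.mk' Z g)⁻¹ = QuotientGroup.mk' Z (g * x * g⁻¹)
    simp
  have hmkmul : ∀ x (hx : x ∈ M) y (hy : y ∈ M), mkA x hx * mkA y hy = mkA (x * y) (M.mul_mem hx hy) := by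
    intro x hx y hy
    apply Subtype.ext
    show QuotientGroup.mk' Z x * QuotientGroup.mk' Z y = QuotientGroup.mk' Z (x * y)
    simp
  have hmkinv : ∀ x (hx : x ∈ M), (mkA x hx)⁻¹ = mkA (x⁻¹) (M.inv_mem hx) := by
    intro x hx
    apply Subtype.ext
    show (QuotientGroup.mk' Z x)⁻¹ = QuotientGroup.mk' Z (x⁻¹)
    simp
  have hmkeq : ∀ x (hx : x ∈ M) y (hy : y ∈ M), mkA x hx = mkA y hy ↔ x⁻¹ * y ∈ Z := by
    intro x hx y hy
    rw [← QuotientGroup.eq]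
    exact Subtype.ext_iff
  have key := coprime_comm γ' hr hp hp2 hrp (by
      intro a
      obtain ⟨x, hx, rfl⟩ := hsurj a
      apply Subtype.ext
      show (QuotientGroup.mk' Z x) ^ r = 1
      rw [← map_pow]
      exact (QuotientGroup.eq_one_iff _).mpr (hMr x hx)) (by
      have h1 : ∀ k : ℕ, ∀ a : A, ((γ'^[k] a : A) : G ⧸ Z) = (QuotientGroup.mk' Z g) ^ k * a.1 * ((QuotientGroup.mk' Z g) ^ k)⁻¹ := by
        intro k
        induction k with
        | zero => intro a; simp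
        | succ k ih =>
          intro a
          rw [Function.iterate_succ_apply']
          show (QuotientGroup.mk' Z g) * (γ'^[k] a : A).1 * (QuotientGroup.mk' Z g)⁻¹ = _
          rw [ih, pow_succ']
          simp only [mul_assoc, mul_inv_rev]
      intro a
      apply Subtype.ext
      rw [h1, ← map_pow, hgp, map_one]
      simp) (by
      intro a
      obtain ⟨z, hz, rfl⟩ := hsurj a
      have h1 := hfix z hz
      simp only [hmkγ, hmkmul, hmkinv]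
      symm
      have hDz := hDM z hz
      have hu := M.mul_mem (hγM _ (hγM _ hDz)) (M.inv_mem hDz)
      exact (hmkeq _ hu _ (hγM _ hu)).mpr h1)
  intro x hx
  have h1 := key (mkA x hx)
  rw [hmkγ x hx] at h1
  exact (hmkeq _ hx _ (hγM _ hx)).mp h1.symm

end

end H98.ExEC
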