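import Mathlib
import Cfsg.Agent.Lib.H98.ExEB
import Cfsg.Agent.Lib.H98.ExEC

/-!
Eigenspaces of elements normalising a group of extraspecial type: abstract main theorem.
-/

set_option autoImplicit false
open scoped commutatorElement

namespace H98.ExED

open Module H98.ExEA H98.ExEB H98.ExEC

/-- setting -/
structure Setup {F V G : Type*} [Field F] [AddCommGroup V] [Module F V] [Group G] (ρ : G →* Module.End F V)
    (M Z : Subgroup G) (r : ℕ) (g : G) : Prop where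
  hr : r.Prime
  hZ : Z ≤ Subgroup.center G
  hZM : Z ≤ M
  hMM : ∀ x ∈ M, ∀ y ∈ M, ⁅x, y⁆ ∈ Z
  hMM' : ∀ x ∈ M, ∀ y ∈ M, ⁅x, y⁆ ^ r = 1
  hMr : ∀ x ∈ M, x ^ r ∈ Z
  hC : ∀ x, (∀ y ∈ M, x * y = y * x) → x ∈ Z
  hZs : ∀ z ∈ Z, ∃ c : F, c ≠ 0 ∧ ∀ v, ρ z v = c • v
  hfaith : ∀ z, (∀ v, ρ z v = v) → z = 1
  hg : ∀ x ∈ M, g * x * g⁻¹ ∈ M
  hg' : ∀ x ∈ M, g⁻¹ * x * g ∈ M

variable {F V G : Type*} [Field F] [AddCommGroup V] [Module F V] [FiniteDimensional F V] [Group G]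
  {ρ : G →* Module.End F V} {M Z : Subgroup G} {r : ℕ} {g : G}

theorem Setup.scal (h : Setup ρ M Z r g) {x y : G} (hx : x ∈ M) (hy : y ∈ M) (hxy : x * y ≠ y * x) :
    ∃ c : F, IsPrimitiveRoot c r ∧ ∀ v, ρ ⁅x, y⁆ v = c • v := by
  obtain ⟨c, hc0, hc⟩ := h.hZs _ (h.hMM x hx y hy)
  have hne : ⁅x, y⁆ ≠ 1 := fun h1 => hxy (commutatorElement_eq_one_iff_mul_comm.mp h1)
  have hc1 : c ≠ 1 := by
    rintro rfl
    exact hne (h.hfaith _ (fun v => by rw [hc, one_smul]))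
  have hex : ∃ v : V, v ≠ 0 := by
    by_contra hcon
    push Not at hcon
    exact hne (h.hfaith _ (fun v => by rw [hcon (ρ ⁅x, y⁆ v), hcon v]))
  obtain ⟨v, hv⟩ := hex
  have hcr : c ^ r = 1 := by
    have h1 : ∀ k : ℕ, ρ (⁅x, y⁆ ^ k) v = c ^ k • v := by
      intro k
      induction k with
      | zero => simp
      | succ k ih => rw [pow_succ, map_mul, Module.End.mul_apply, hc, map_smul, ih, smul_smul, ← pow_succ']
    have h2 := h1 r
    rw [h.hMM' x hx y hy, map_one, Module.End.one_apply] at h2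
    have h3 : (c ^ r - 1) • v = 0 := by rw [sub_smul, one_smul, ← h2, sub_self]
    exact sub_eq_zero.mp ((smul_eq_zero.mp h3).resolve_right hv)
  haveI : Fact r.Prime := ⟨h.hr⟩
  refine ⟨c, ?_, hc⟩
  have h4 : orderOf c = r := orderOf_eq_prime hcr hc1
  rw [← h4]
  exact IsPrimitiveRoot.orderOf c

theorem Setup.YM (h : Setup ρ M Z r g) {x : G} (hx : x ∈ M) : x⁻¹ * (g * x * g⁻¹) ∈ M :=
  M.mul_mem (M.inv_mem hx) (h.hg x hx)

theorem inter_le {x : G} {l : F} (hl : l ≠ 0) (v : V) (hv : v ∈ Module.End.eigenspace (ρ g) l ⊓ Module.End.eigenspace (ρ (x⁻¹ * g * x)) l) :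
    ρ (x⁻¹ * (g * x * g⁻¹)) v = v ∧ ρ g v = l • v ∧ ρ g⁻¹ v = l⁻¹ • v := by
  obtain ⟨h1, h2⟩ := hv
  rw [SetLike.mem_coe, Module.End.mem_eigenspace_iff] at h1 h2
  have h3 : x⁻¹ * g * x = (x⁻¹ * (g * x * g⁻¹)) * g := by group
  rw [h3, map_mul, Module.End.mul_apply, h1, map_smul] at h2
  refine ⟨smul_right_injective V hl h2, h1, ?_⟩
  have h4 := rho_inv ρ g v
  rw [h1, map_smul] at h4
  rw [← h4, smul_smul, inv_mul_cancel₀ hl, one_smul, h4]

theorem two_d {x : G} {l : F} :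
    2 * finrank F (Module.End.eigenspace (ρ g) l) ≤ finrank F V +
      finrank F (Module.End.eigenspace (ρ g) l ⊓ Module.End.eigenspace (ρ (x⁻¹ * g * x)) l : Submodule F V) :=
  two_mul_le _ _ _ rfl (finrank_conj ρ g x l)

theorem two_d_bot {x : G} {l : F} (h : ∀ v, v ∈ Module.End.eigenspace (ρ g) l ⊓ Module.End.eigenspace (ρ (x⁻¹ * g * x)) l → v = 0) :
    2 * finrank F (Module.End.eigenspace (ρ g) l) ≤ finrank F V := by
  have h1 := two_d (ρ := ρ) (g := g) (x := x) (l := l)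
  have h2 : Module.End.eigenspace (ρ g) l ⊓ Module.End.eigenspace (ρ (x⁻¹ * g * x)) l = ⊥ := by
    rw [eq_bot_iff]
    intro v hv
    exact h v hv
  rw [h2, finrank_bot, add_zero] at h1
  exact h1

/-- a nontrivial scalar commutator -/
theorem Setup.caseA (h : Setup ρ M Z r g) {x : G} {l : F} (hl : l ≠ 0) (hy : x⁻¹ * (g * x * g⁻¹) ∈ Z)
    (hne : x⁻¹ * (g * x * g⁻¹) ≠ 1) : 2 * finrank F (Module.End.eigenspace (ρ g) l) ≤ finrank F V := by
  apply two_d_bot (x := x)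
  intro v hv
  obtain ⟨h1, -, -⟩ := inter_le hl v hv
  obtain ⟨c, hc0, hc⟩ := h.hZs _ hy
  rw [hc] at h1
  have h2 : (c - 1) • v = 0 := by rw [sub_smul, one_smul, h1, sub_self]
  refine (smul_eq_zero.mp h2).resolve_left ?_
  intro h3
  apply hne
  apply h.hfaith
  intro w
  rw [hc, sub_eq_zero.mp h3, one_smul]

theorem Setup.small (h : Setup ρ M Z r g) {y : G} (hy : y ∈ M) (hyZ : y ∉ Z) {l : F} (hl : l ≠ 0) :
    r * finrank F (Module.End.eigenspace (ρ y) l) ≤ finrank F V := by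
  classical
  have hex : ∃ z ∈ M, y * z ≠ z * y := by
    by_contra hcon
    push Not at hcon
    exact hyZ (h.hC y hcon)
  obtain ⟨z, hz, hyz⟩ := hex
  have hne : y⁻¹ * z⁻¹ ≠ z⁻¹ * y⁻¹ := by
    intro h1
    apply hyz
    have := congrArg (fun t => t⁻¹) h1
    simpa using this.symm
  obtain ⟨c, hc, hcv⟩ := h.scal (M.inv_mem hy) (M.inv_mem hz) hne
  refine ExEA.small ρ (z := z) hc ?_ hl
  intro v
  have h1 : z⁻¹ * y * z = y * ⁅y⁻¹, z⁻¹⁆ := by rw [commutatorElement_def]; group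
  rw [h1, map_mul, Module.End.mul_apply, hcv, map_smul]

theorem Setup.caseB (h : Setup ρ M Z r g) {x : G} (hx : x ∈ M) {l : F} (hl : l ≠ 0) (hy : x⁻¹ * (g * x * g⁻¹) ∉ Z) :
    ∃ f : ℕ, 2 * finrank F (Module.End.eigenspace (ρ g) l) ≤ finrank F V + f ∧ r * f ≤ finrank F V := by
  refine ⟨finrank F (Module.End.eigenspace (ρ (x⁻¹ * (g * x * g⁻¹))) 1), ?_, h.small (h.YM hx) hy one_ne_zero⟩
  refine (two_d (ρ := ρ) (g := g) (x := x) (l := l)).trans (Nat.add_le_add_left (Submodule.finrank_mono ?_) _)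
  intro v hv
  obtain ⟨h1, -, -⟩ := inter_le hl v hv
  rw [Module.End.mem_eigenspace_iff, h1, one_smul]

theorem Setup.caseC (h : Setup ρ M Z r g) {x : G} (hx : x ∈ M) {l : F} (hl : l ≠ 0)
    (hne : (x⁻¹ * (g * x * g⁻¹)) * (g * (x⁻¹ * (g * x * g⁻¹)) * g⁻¹) ≠
      (g * (x⁻¹ * (g * x * g⁻¹)) * g⁻¹) * (x⁻¹ * (g * x * g⁻¹))) :
    2 * finrank F (Module.End.eigenspace (ρ g) l) ≤ finrank F V := by
  apply two_d_bot (x := x)
  intro v hv
  obtain ⟨h1, h2, h3⟩ := inter_le hl v hv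
  obtain ⟨c, hc, hcv⟩ := h.scal (h.YM hx) (h.hg _ (h.YM hx)) hne
  set b := x⁻¹ * (g * x * g⁻¹) with hb
  have h4 : ρ b⁻¹ v = v := by
    have := rho_inv ρ b v
    rwa [h1] at this
  have h5 : ρ (g * b * g⁻¹) v = v := by
    rw [map_mul, map_mul, Module.End.mul_apply, Module.End.mul_apply, h3, map_smul, h1, map_smul, h2, smul_smul,
      inv_mul_cancel₀ hl, one_smul]
  have h6 : ρ (g * b * g⁻¹)⁻¹ v = v := by
    have := rho_inv ρ (g * b * g⁻¹) v
    rwa [h5] at this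
  have h7 := hcv v
  rw [commutatorElement_def, map_mul, map_mul, map_mul, Module.End.mul_apply, Module.End.mul_apply, Module.End.mul_apply,
    h6, h4, h5, h1] at h7
  have h8 : (c - 1) • v = 0 := by rw [sub_smul, one_smul, ← h7, sub_self]
  refine (smul_eq_zero.mp h8).resolve_left ?_
  intro h9
  have := hc.ne_one h.hr.one_lt
  exact this (sub_eq_zero.mp h9)

/-- odd order different from `r` -/
theorem Setup.coprime (h : Setup ρ M Z r g) {p : ℕ} (hp : p.Prime) (hp2 : p ≠ 2) (hrp : r ≠ p) (hgp : g ^ p = 1)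
    (hgZ : g ∉ Z) {l : F} (hl : l ≠ 0) : 2 * finrank F (Module.End.eigenspace (ρ g) l) ≤ finrank F V := by
  by_cases hyp : ∀ x ∈ M, (x⁻¹ * (g * x * g⁻¹)) * (g * (x⁻¹ * (g * x * g⁻¹)) * g⁻¹) =
      (g * (x⁻¹ * (g * x * g⁻¹)) * g⁻¹) * (x⁻¹ * (g * x * g⁻¹))
  · have h1 := coprime_case h.hr hp hp2 hrp h.hZ h.hZM h.hMM h.hMr (fun x _ => h.hC x) h.hg h.hg' hgp hyp
    have hex : ∃ x ∈ M, x⁻¹ * (g * x * g⁻¹) ≠ 1 := by
      by_contra hcon
      push Not at hcon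
      apply hgZ
      apply h.hC
      intro y hy
      have := hcon y hy
      rw [inv_mul_eq_one, eq_mul_inv_iff_mul_eq] at this
      exact this.symm
    obtain ⟨x, hx, hne⟩ := hex
    exact h.caseA hl (h1 x hx) hne
  · push Not at hyp
    obtain ⟨x, hx, hne⟩ := hyp
    exact h.caseC hx hl hne

/-- order `r`, at least 5 -/
theorem Setup.equal [Finite G] (h : Setup ρ M Z r g) (hr5 : 5 ≤ r) (hgp : g ^ r = 1)
    (hE : ∀ x ∈ M, (x⁻¹ * (g * x * g⁻¹)) ^ r = 1)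
    (hgZ : g ∉ Z) {l : F} (hl : l ≠ 0) : 2 * finrank F (Module.End.eigenspace (ρ g) l) ≤ finrank F V := by
  classical
  haveI : Fact r.Prime := ⟨h.hr⟩
  haveI hZn : Z.Normal := ⟨fun n hn g => by
    rw [Subgroup.mem_center_iff.mp (h.hZ hn) g, mul_inv_cancel_right]; exact hn⟩
  by_cases hall : ∀ x ∈ M, x⁻¹ * (g * x * g⁻¹) ∈ Z
  · have hex : ∃ x ∈ M, x⁻¹ * (g * x * g⁻¹) ≠ 1 := by
      by_contra hcon
      push Not at hcon
      apply hgZ
      apply h.hC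
      intro y hy
      have := hcon y hy
      rw [inv_mul_eq_one, eq_mul_inv_iff_mul_eq] at this
      exact this.symm
    obtain ⟨x, hx, hne⟩ := hex
    exact h.caseA hl (hall x hx) hne
  push Not at hall
  obtain ⟨x₀, hx₀, hne₀⟩ := hall
  -- selection
  have hsel : ∃ x ∈ M, x⁻¹ * (g * x * g⁻¹) ∉ Z ∧
      (x⁻¹ * (g * x * g⁻¹))⁻¹ * (g * (x⁻¹ * (g * x * g⁻¹)) * g⁻¹) ∈ Z := by
    have hA : IsPGroup r (M.map (QuotientGroup.mk' Z)) := by
      rintro ⟨_, x, hx, rfl⟩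
      refine ⟨1, Subtype.ext ?_⟩
      show (QuotientGroup.mk' Z x) ^ r ^ 1 = 1
      rw [pow_one, ← map_pow]
      exact (QuotientGroup.eq_one_iff _).mpr (h.hMr x hx)
    have hmk : ∀ x, (QuotientGroup.mk' Z x)⁻¹ * (QuotientGroup.mk' Z g * QuotientGroup.mk' Z x * (QuotientGroup.mk' Z g)⁻¹) =
        QuotientGroup.mk' Z (x⁻¹ * (g * x * g⁻¹)) := by
      intro x
      simp only [map_mul, map_inv]
    obtain ⟨_, ⟨x, hx, rfl⟩, h1, h2⟩ := select (g := QuotientGroup.mk' Z g) h.hr hA (by rw [← map_pow, hgp, map_one]) (by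
        rintro _ ⟨x, hx, rfl⟩
        exact ⟨g * x * g⁻¹, h.hg x hx, by simp⟩) (QuotientGroup.mk' Z x₀) ⟨x₀, hx₀, rfl⟩ (by
        rw [hmk]
        intro h1
        exact hne₀ ((QuotientGroup.eq_one_iff _).mp h1))
    rw [hmk] at h1 h2
    rw [hmk] at h2
    exact ⟨x, hx, fun h3 => h1 ((QuotientGroup.eq_one_iff _).mpr h3), (QuotientGroup.eq_one_iff _).mp h2⟩
  obtain ⟨x, hx, hyZ, hyy⟩ := hsel
  have hyE := hE x hx
  have hyM := h.YM hx
  have hxg : x⁻¹ * g * x = (x⁻¹ * (g * x * g⁻¹)) * g := by group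
  set y := x⁻¹ * (g * x * g⁻¹) with hy
  by_cases hyy1 : y⁻¹ * (g * y * g⁻¹) = 1
  · have hyg : y * g = g * y := by
      rw [inv_mul_eq_one, eq_mul_inv_iff_mul_eq] at hyy1
      exact hyy1
    have hyr : ρ y ^ r = 1 := by rw [← map_pow, hyE, map_one]
    have hfin : r * finrank F (Module.End.eigenspace (ρ g) l) ≤ 2 * finrank F V := by
      by_cases hxy : y⁻¹ * x⁻¹ = x⁻¹ * y⁻¹
      · -- commuting
        have hxy' : x⁻¹ * y * x = y := by
          have := congrArg (fun t => t⁻¹) hxy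
          simp only [mul_inv_rev, inv_inv] at this
          rw [mul_assoc, ← this, inv_mul_cancel_left]
        have hex : ∃ z ∈ M, y * z ≠ z * y := by
          by_contra hcon
          push Not at hcon
          exact hyZ (h.hC y hcon)
        obtain ⟨z, hz, hyz⟩ := hex
        obtain ⟨ω, hω, -⟩ := h.scal hyM hz hyz
        exact heis_lin ρ hω hxg hyg hyr hxy' hl (h.small hyM hyZ one_ne_zero)
      · obtain ⟨ω, hω, hωv⟩ := h.scal (M.inv_mem hyM) (M.inv_mem hx) hxy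
        refine heis_quad ρ (by omega) hω hxg hyg hyr ?_ hl
        intro v
        have h1 : x⁻¹ * y * x = y * ⁅y⁻¹, x⁻¹⁆ := by rw [commutatorElement_def]; group
        rw [h1, map_mul, Module.End.mul_apply, hωv, map_smul]
    nlinarith
  · exact h.caseA hl hyy hyy1

end H98.ExED
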