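import Mathlib

set_option autoImplicit false

/-! Fixed point spaces in quasi-primitive solvable linear groups. -/

namespace H98.PrimSol

open Module

section fix

variable {Γ : Type*} [Group Γ] {F V : Type*} [Field F] [AddCommGroup V] [Module F V] [FiniteDimensional F V]
  (ρ : Γ →* (V →ₗ[F] V))

omit [FiniteDimensional F V] in
theorem mem_fix {g : Γ} {v : V} : v ∈ Module.End.eigenspace (ρ g) 1 ↔ ρ g v = v := by
  rw [Module.End.mem_eigenspace_iff, one_smul]

omit [FiniteDimensional F V] in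
theorem rho_inv (g : Γ) (v : V) : ρ g⁻¹ (ρ g v) = v := by
  rw [← Module.End.mul_apply, ← map_mul, inv_mul_cancel, map_one, Module.End.one_apply]

omit [FiniteDimensional F V] in
theorem rho_inj (g : Γ) : Function.Injective (ρ g) := by
  intro v w h
  rw [← rho_inv ρ g v, h, rho_inv]

theorem comm_bound (g h : Γ) : 2 * finrank F (Module.End.eigenspace (ρ g) 1) ≤
    finrank F V + finrank F (Module.End.eigenspace (ρ (g * h * g⁻¹ * h⁻¹)) 1) := by
  set W := Module.End.eigenspace (ρ g) 1 with hW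
  have h1 : finrank F ↥(W.map (ρ h)) = finrank F W :=
    (Submodule.equivMapOfInjective (ρ h) (rho_inj ρ h) W).finrank_eq.symm
  have h2 := Submodule.finrank_sup_add_finrank_inf_eq W (W.map (ρ h))
  have h3 : W ⊓ W.map (ρ h) ≤ Module.End.eigenspace (ρ (g * h * g⁻¹ * h⁻¹)) 1 := by
    rintro v ⟨hv1, w, hw, rfl⟩
    have hv1 : ρ g (ρ h w) = ρ h w := (mem_fix ρ).mp hv1
    have hw : ρ g w = w := (mem_fix ρ).mp hw
    rw [mem_fix]
    have h4 : ρ g⁻¹ w = w := by
      conv_lhs => rw [← hw]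
      exact rho_inv ρ g w
    rw [map_mul, map_mul, map_mul, Module.End.mul_apply, Module.End.mul_apply, Module.End.mul_apply, rho_inv, h4, hv1]
  have h4 := Submodule.finrank_mono h3
  have h5 := Submodule.finrank_le (W ⊔ W.map (ρ h))
  omega

end fix

section grp

variable {Γ : Type*} [Group Γ] [Finite Γ]

/-- abelian normal subgroup -/
def AN (A : Subgroup Γ) : Prop := A.Normal ∧ ∀ a ∈ A, ∀ b ∈ A, a * b = b * a

theorem exists_max : ∃ U : Subgroup Γ, AN U ∧ ∀ A : Subgroup Γ, AN A → U ≤ A → A = U := by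
  obtain ⟨U, -, hU⟩ := (Set.toFinite {A : Subgroup Γ | AN A}).exists_le_maximal
    (show (⊥ : Subgroup Γ) ∈ {A : Subgroup Γ | AN A} from ⟨inferInstance, by
      intro a ha b hb
      rw [Subgroup.mem_bot] at ha hb
      rw [ha, hb]⟩)
  refine ⟨U, hU.1, fun A hA hle => le_antisymm (hU.2 hA hle) hle⟩

theorem exists_step (P : ℕ → Prop) (N : ℕ) (hN : P N) (h0 : ¬ P 0) : ∃ k, ¬ P k ∧ P (k + 1) := by
  induction N with
  | zero => exact absurd hN h0
  | succ N ih =>
    by_cases h : P N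
    · exact ih h
    · exact ⟨N, h, hN⟩

omit [Finite Γ] in
theorem exists_noncomm (hs : Group.IsSolvable Γ) (U : Subgroup Γ) (hU : AN U) (hmax : ∀ A : Subgroup Γ, AN A → U ≤ A → A = U)
    (g : Γ) (hgU : g ∉ U) (hgC : ∀ u ∈ U, g * u = u * g) :
    ∃ B : Subgroup Γ, B.Normal ∧ U ≤ B ∧ (∀ u ∈ U, ∀ b ∈ B, u * b = b * u) ∧ (∀ a ∈ B, ∀ b ∈ B, a * b * a⁻¹ * b⁻¹ ∈ U) ∧
      ∃ b ∈ B, g * b ≠ b * g := by
  by_contra hcon
  push Not at hcon
  have hUn := hU.1
  -- the subgroup of all such `g`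
  let D : Subgroup Γ :=
    { carrier := {g | (∀ u ∈ U, g * u = u * g) ∧ ∀ B : Subgroup Γ, B.Normal → U ≤ B → (∀ u ∈ U, ∀ b ∈ B, u * b = b * u) →
        (∀ a ∈ B, ∀ b ∈ B, a * b * a⁻¹ * b⁻¹ ∈ U) → ∀ b ∈ B, g * b = b * g}
      one_mem' := ⟨fun u _ => by simp, fun B _ _ _ _ b _ => by simp⟩
      mul_mem' := by
        rintro x y ⟨hx1, hx2⟩ ⟨hy1, hy2⟩
        refine ⟨fun u hu => ?_, fun B h1 h2 h3 h4 b hb => ?_⟩
        · rw [mul_assoc, hy1 u hu, ← mul_assoc, hx1 u hu, mul_assoc]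
        · rw [mul_assoc, hy2 B h1 h2 h3 h4 b hb, ← mul_assoc, hx2 B h1 h2 h3 h4 b hb, mul_assoc]
      inv_mem' := by
        rintro x ⟨hx1, hx2⟩
        refine ⟨fun u hu => ?_, fun B h1 h2 h3 h4 b hb => ?_⟩
        · rw [inv_mul_eq_iff_eq_mul, ← mul_assoc, hx1 u hu, mul_inv_cancel_right]
        · rw [inv_mul_eq_iff_eq_mul, ← mul_assoc, hx2 B h1 h2 h3 h4 b hb, mul_inv_cancel_right] }
  have hDn : D.Normal := by
    refine ⟨?_⟩
    rintro x ⟨hx1, hx2⟩ k
    refine ⟨fun u hu => ?_, fun B h1 h2 h3 h4 b hb => ?_⟩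
    · have h5 := hx1 (k⁻¹ * u * k) (by
        have := hUn.conj_mem u hu k⁻¹
        rwa [inv_inv] at this)
      calc k * x * k⁻¹ * u = k * (x * (k⁻¹ * u * k)) * k⁻¹ := by group
        _ = k * ((k⁻¹ * u * k) * x) * k⁻¹ := by rw [h5]
        _ = u * (k * x * k⁻¹) := by group
    · have h5 := hx2 B h1 h2 h3 h4 (k⁻¹ * b * k) (by
        have := h1.conj_mem b hb k⁻¹
        rwa [inv_inv] at this)
      calc k * x * k⁻¹ * b = k * (x * (k⁻¹ * b * k)) * k⁻¹ := by group
        _ = k * ((k⁻¹ * b * k) * x) * k⁻¹ := by rw [h5]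
        _ = b * (k * x * k⁻¹) := by group
  have hgD : g ∈ D := ⟨hgC, hcon⟩
  have hUD : U ≤ D := fun u hu => ⟨fun v hv => hU.2 u hu v hv, fun B _ _ h3 _ b hb => h3 u hu b hb⟩
  -- derived series of `D`
  let S : ℕ → Subgroup Γ := fun k => Nat.rec D (fun _ T => ⁅T, T⁆) k
  have hS0 : S 0 = D := rfl
  have hSs : ∀ k, S (k + 1) = ⁅S k, S k⁆ := fun k => rfl
  have hSn : ∀ k, (S k).Normal := by
    intro k
    induction k with
    | zero => exact hDn
    | succ k ih => rw [hSs]; exact @Subgroup.commutator_normal _ _ (S k) (S k) ih ih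
  have hSle : ∀ k, S k ≤ derivedSeries Γ k := by
    intro k
    induction k with
    | zero => exact le_top
    | succ k ih => rw [hSs, derivedSeries_succ]; exact Subgroup.commutator_mono ih ih
  have hSD : ∀ k, S k ≤ D := by
    intro k
    induction k with
    | zero => exact le_rfl
    | succ k ih =>
      rw [hSs]
      haveI := hSn k
      exact (@Subgroup.commutator_le_left _ _ (S k) (S k) (hSn k)).trans ih
  obtain ⟨N, hN⟩ := hs.solvable
  have hSN : S N ≤ U := by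
    refine (hSle N).trans ?_
    rw [hN]; exact bot_le
  obtain ⟨k, hSk, hSk1⟩ := exists_step (fun k => S k ≤ U) N hSN (fun h => hgU (h hgD))
  -- the subgroup `B = S k ⊔ U`
  haveI := hSn k
  haveI := hUn
  have hBD : S k ⊔ U ≤ D := sup_le (hSD k) hUD
  have hcommB : ∀ a ∈ S k ⊔ U, ∀ b ∈ S k ⊔ U, a * b * a⁻¹ * b⁻¹ ∈ U := by
    intro a ha b hb
    obtain ⟨s, hs1, u, hu, rfl⟩ := Subgroup.mem_sup_of_normal_right.mp ha
    obtain ⟨t, ht1, v, hv, rfl⟩ := Subgroup.mem_sup_of_normal_right.mp hb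
    have hsu : ∀ x ∈ S k ⊔ U, ∀ w ∈ U, x * w = w * x := fun x hx w hw => (hBD hx).1 w hw
    have h1 : s * t * s⁻¹ * t⁻¹ ∈ U := by
      apply hSk1
      rw [hSs]
      exact Subgroup.commutator_mem_commutator hs1 ht1
    have hs' : s ∈ S k ⊔ U := Subgroup.mem_sup_left hs1
    have ht' : t ∈ S k ⊔ U := Subgroup.mem_sup_left ht1
    have e1 : s * u * (t * v) * (s * u)⁻¹ * (t * v)⁻¹ = s * t * s⁻¹ * t⁻¹ := by
      have a1 : u * t = t * u := (hsu t ht' u hu).symm
      have a2 : u * v = v * u := hU.2 u hu v hv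
      have a3 : v * s⁻¹ = s⁻¹ * v := (hsu s⁻¹ ((S k ⊔ U).inv_mem hs') v hv).symm
      have a4 : v * t⁻¹ = t⁻¹ * v := (hsu t⁻¹ ((S k ⊔ U).inv_mem ht') v hv).symm
      calc s * u * (t * v) * (s * u)⁻¹ * (t * v)⁻¹ = s * (u * t) * v * u⁻¹ * s⁻¹ * v⁻¹ * t⁻¹ := by group
        _ = s * t * (u * v) * u⁻¹ * s⁻¹ * v⁻¹ * t⁻¹ := by rw [a1]; group
        _ = s * t * (v * s⁻¹) * v⁻¹ * t⁻¹ := by rw [a2]; group
        _ = s * t * s⁻¹ * t⁻¹ := by rw [a3]; group
    rw [e1]; exact h1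
  have hUB : ∀ u ∈ U, ∀ b ∈ S k ⊔ U, u * b = b * u := fun u hu b hb => ((hBD hb).1 u hu).symm
  have hBn : (S k ⊔ U).Normal := @Subgroup.sup_normal _ _ (S k) U (hSn k) hUn
  have hBab : ∀ a ∈ S k ⊔ U, ∀ b ∈ S k ⊔ U, a * b = b * a := by
    intro a ha b hb
    exact (hBD ha).2 (S k ⊔ U) hBn le_sup_right hUB hcommB b hb
  have := hmax (S k ⊔ U) ⟨hBn, hBab⟩ le_sup_right
  exact hSk (by rw [← this]; exact le_sup_left)

theorem main (hs : Group.IsSolvable Γ) {F V : Type*} [Field F] [AddCommGroup V] [Module F V] [FiniteDimensional F V]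
    (ρ : Γ →* (V →ₗ[F] V))
    (hP : ∀ A : Subgroup Γ, AN A → ∀ z ∈ A, z ≠ 1 → ∀ v, ρ z v = v → v = 0)
    (g : Γ) (hg : g ≠ 1) : 4 * finrank F (Module.End.eigenspace (ρ g) 1) ≤ 3 * finrank F V := by
  obtain ⟨U, hU, hmax⟩ := exists_max (Γ := Γ)
  have hfix : ∀ z ∈ U, z ≠ 1 → finrank F (Module.End.eigenspace (ρ z) 1) = 0 := by
    intro z hz hz1
    have : Module.End.eigenspace (ρ z) 1 = ⊥ := by
      rw [eq_bot_iff]
      intro v hv
      rw [Submodule.mem_bot]
      exact hP U hU z hz hz1 v ((mem_fix ρ).mp hv)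
    rw [this, finrank_bot]
  have hcomm : ∀ a b : Γ, a * b ≠ b * a → a * b * a⁻¹ * b⁻¹ ≠ 1 := by
    intro a b h h1
    apply h
    calc a * b = (a * b * a⁻¹ * b⁻¹) * (b * a) := by group
      _ = b * a := by rw [h1, one_mul]
  have hhalf : ∀ a b : Γ, a * b ≠ b * a → a * b * a⁻¹ * b⁻¹ ∈ U → 2 * finrank F (Module.End.eigenspace (ρ a) 1) ≤ finrank F V := by
    intro a b h h1
    have h2 := comm_bound ρ a b
    rw [hfix _ h1 (hcomm a b h)] at h2
    simpa using h2
  have hUn := hU.1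
  by_cases hgU : g ∈ U
  · rw [hfix g hgU hg]; omega
  by_cases hgC : ∀ u ∈ U, g * u = u * g
  · obtain ⟨B, hBn, hUB, hUc, hBB, b, hb, hgb⟩ := exists_noncomm hs U hU hmax g hgU hgC
    have hcB : g * b * g⁻¹ * b⁻¹ ∈ B := B.mul_mem (hBn.conj_mem b hb g) (B.inv_mem hb)
    by_cases hcU : g * b * g⁻¹ * b⁻¹ ∈ U
    · have := hhalf g b hgb hcU
      omega
    · -- an element of `B \ U` is not central in `B`
      set y := g * b * g⁻¹ * b⁻¹ with hy
      have hex : ∃ b' ∈ B, y * b' ≠ b' * y := by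
        by_contra hcon
        push Not at hcon
        -- the centre of B
        let Z : Subgroup Γ := B ⊓ Subgroup.centralizer (B : Set Γ)
        have hZn : Z.Normal := by
          refine ⟨?_⟩
          rintro x ⟨hx1, hx2⟩ k
          refine ⟨hBn.conj_mem x hx1 k, ?_⟩
          show k * x * k⁻¹ ∈ Subgroup.centralizer (B : Set Γ)
          rw [Subgroup.mem_centralizer_iff]
          intro c hc
          have hx2' : ∀ c ∈ B, c * x = x * c := Subgroup.mem_centralizer_iff.mp hx2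
          have h5 := hx2' (k⁻¹ * c * k) (by
            have := hBn.conj_mem c hc k⁻¹
            rwa [inv_inv] at this)
          calc c * (k * x * k⁻¹) = k * ((k⁻¹ * c * k) * x) * k⁻¹ := by group
            _ = k * (x * (k⁻¹ * c * k)) * k⁻¹ := by rw [h5]
            _ = k * x * k⁻¹ * c := by group
        have hZab : ∀ a ∈ Z, ∀ b ∈ Z, a * b = b * a := by
          rintro a ⟨ha1, -⟩ b ⟨-, hb2⟩
          exact Subgroup.mem_centralizer_iff.mp hb2 a ha1
        have hUZ : U ≤ Z := by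
          intro u hu
          refine ⟨hUB hu, ?_⟩
          show u ∈ Subgroup.centralizer (B : Set Γ)
          rw [Subgroup.mem_centralizer_iff]
          intro c hc
          exact (hUc u hu c hc).symm
        have hZU := hmax Z ⟨hZn, hZab⟩ hUZ
        apply hcU
        rw [← hZU]
        refine ⟨hcB, ?_⟩
        show y ∈ Subgroup.centralizer (B : Set Γ)
        rw [Subgroup.mem_centralizer_iff]
        intro c hc
        exact (hcon c hc).symm
      obtain ⟨b', hb', hyb⟩ := hex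
      have h1 := hhalf y b' hyb (hBB y hcB b' hb')
      have h2 := comm_bound ρ g b
      rw [← hy] at h2
      omega
  · push Not at hgC
    obtain ⟨u, hu, hgu⟩ := hgC
    have := hhalf g u hgu (U.mul_mem (hUn.conj_mem u hu g) (U.inv_mem hu))
    omega

end grp

end H98.PrimSol
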