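import Mathlib
import Cfsg.Agent.Lib.H98.DicksonSolv
import Cfsg.Agent.Lib.H60.Tri235

set_option autoImplicit false

/-! `SL₂(q)` generated by two transvections. -/

namespace H98.TwoTransv

open MulAction Matrix OnePoint H98.Moebius H98.DicksonField H98.DicksonPGL H98.DicksonPSL H98.DicksonIdx H98.DicksonDih
  H98.DicksonMax H98.DicksonSub

section trace

variable {F : Type*} [Field F]

/-- the squared trace is in the subfield for elements conjugate into `PGL₂(K)` -/
theorem tr_sq_mem (K : Subfield F) (h : ProjGenLinGroup (Fin 2) F) (s : Matrix.SpecialLinearGroup (Fin 2) F)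
    (hs : h * ProjGenLinGroup.mk (Matrix.SpecialLinearGroup.toGL s) * h⁻¹ ∈
      (ProjGenLinGroup.map K.subtype : ProjGenLinGroup (Fin 2) K →* ProjGenLinGroup (Fin 2) F).range) :
    ((s : Matrix (Fin 2) (Fin 2) F).trace) ^ 2 ∈ K := by
  induction h using Matrix.ProjGenLinGroup.induction_on with | mk g =>
  obtain ⟨k, hk⟩ := hs
  induction k using Matrix.ProjGenLinGroup.induction_on with | mk m =>
  rw [ProjGenLinGroup.map_mk, ← map_inv, ← map_mul, ← map_mul, ProjGenLinGroup.mk_eq_mk_iff] at hk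
  obtain ⟨u, hu⟩ := hk
  -- m * u = g s g⁻¹
  have h1 : (g * Matrix.SpecialLinearGroup.toGL s * g⁻¹ : GL (Fin 2) F).val.trace = (s : Matrix (Fin 2) (Fin 2) F).trace := by
    rw [Units.val_mul, Matrix.trace_mul_comm, ← Units.val_mul, ← mul_assoc, inv_mul_cancel, one_mul]; rfl
  have h2 : (g * Matrix.SpecialLinearGroup.toGL s * g⁻¹ : GL (Fin 2) F).val.det = 1 := by
    rw [← Matrix.GeneralLinearGroup.val_det_apply, map_mul, map_mul, map_inv, mul_inv_cancel_comm]
    rw [Matrix.SpecialLinearGroup.coeToGL_det]; rfl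
  rw [← hu] at h1 h2
  have h3 : (Matrix.GeneralLinearGroup.map K.subtype m * Matrix.GeneralLinearGroup.scalar (Fin 2) u : GL (Fin 2) F).val =
      (u : F) • ((m : Matrix (Fin 2) (Fin 2) K).map K.subtype) := by
    rw [Units.val_mul, Matrix.GeneralLinearGroup.coe_scalar]
    ext i j
    fin_cases i <;> fin_cases j <;> simp [Matrix.mul_apply, Fin.sum_univ_two, mul_comm]
  rw [h3] at h1 h2
  rw [Matrix.det_smul, Fintype.card_fin] at h2
  rw [Matrix.trace_smul, smul_eq_mul] at h1
  have h4 : ((m : Matrix (Fin 2) (Fin 2) K).map K.subtype).det = ((m : Matrix (Fin 2) (Fin 2) K).det : F) := by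
    rw [← RingHom.mapMatrix_apply, ← RingHom.map_det]; rfl
  have h5 : ((m : Matrix (Fin 2) (Fin 2) K).map K.subtype).trace = ((m : Matrix (Fin 2) (Fin 2) K).trace : F) := by
    simp [Matrix.trace, Fin.sum_univ_two]
  rw [h4] at h2
  rw [h5] at h1
  rw [← h1, mul_pow]
  have hd0 : ((m : Matrix (Fin 2) (Fin 2) K).det : F) ≠ 0 := right_ne_zero_of_mul (by rw [h2]; exact one_ne_zero)
  have h6 : (u : F) ^ 2 = ((m : Matrix (Fin 2) (Fin 2) K).det : F)⁻¹ := eq_inv_of_mul_eq_one_left h2
  rw [h6]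
  exact K.mul_mem (K.inv_mem (SetLike.coe_mem _)) (K.pow_mem (SetLike.coe_mem _) 2)

end trace

section main

variable {F : Type*} [Field F] [Finite F]

/-- the projection -/
noncomputable abbrev π' (F : Type*) [Field F] : Matrix.SpecialLinearGroup (Fin 2) F →* Matrix.ProjectiveSpecialLinearGroup (Fin 2) F :=
  QuotientGroup.mk' _

theorem mk_eq_one_iff (hodd : Odd (Nat.card F)) (a : Matrix.SpecialLinearGroup (Fin 2) F) :
    π' F a = 1 ↔ a * a = 1 := by
  have h := mk_pow_eq_one_iff a 1
  rw [pow_one, gcd_odd hodd, mul_one, pow_two] at h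
  exact h

omit [Finite F] in
theorem up_mul (a b : F) : up a * up b = up (a + b) := by
  apply sl_ext
  rw [Matrix.SpecialLinearGroup.coe_mul, coe_up, coe_up, coe_up]
  ext i j; fin_cases i <;> fin_cases j <;> simp [Matrix.mul_apply, Fin.sum_univ_two]
  ring

omit [Finite F] in
theorem lo_mul (a b : F) : lo a * lo b = lo (a + b) := by
  apply sl_ext
  rw [Matrix.SpecialLinearGroup.coe_mul, coe_lo, coe_lo, coe_lo]
  ext i j; fin_cases i <;> fin_cases j <;> simp [Matrix.mul_apply, Fin.sum_univ_two]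

omit [Finite F] in
theorem up_zero : up (0 : F) = 1 := by
  apply sl_ext; rw [coe_up, Matrix.SpecialLinearGroup.coe_one]
  ext i j; fin_cases i <;> fin_cases j <;> simp

omit [Finite F] in
theorem lo_zero : lo (0 : F) = 1 := by
  apply sl_ext; rw [coe_lo, Matrix.SpecialLinearGroup.coe_one]
  ext i j; fin_cases i <;> fin_cases j <;> simp

omit [Finite F] in
theorem up_pow (b : F) (n : ℕ) : (up b) ^ n = up (n * b) := by
  induction n with
  | zero => rw [pow_zero, Nat.cast_zero, zero_mul, up_zero]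
  | succ n ih => rw [pow_succ, ih, up_mul]; congr 1; push_cast; ring

omit [Finite F] in
theorem lo_pow (b : F) (n : ℕ) : (lo b) ^ n = lo (n * b) := by
  induction n with
  | zero => rw [pow_zero, Nat.cast_zero, zero_mul, lo_zero]
  | succ n ih => rw [pow_succ, ih, lo_mul]; congr 1; push_cast; ring

/-- a subgroup of `SL₂(q)` (q odd) mapping onto `PSL₂(q)` is everything -/
theorem eq_top_of_map (hodd : Odd (Nat.card F)) (N : Subgroup (Matrix.SpecialLinearGroup (Fin 2) F))
    (hN : N.map (π' F) = ⊤) : N = ⊤ := by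
  have h2 := two_ne_zero_of_odd hodd
  have key : ∀ x : Matrix.SpecialLinearGroup (Fin 2) F, x * x ∈ N := by
    intro x
    have h1 : π' F x ∈ N.map (π' F) := by rw [hN]; exact Subgroup.mem_top _
    obtain ⟨n, hn, hnx⟩ := h1
    have h3 : π' F (n⁻¹ * x) = 1 := by rw [map_mul, map_inv, hnx, inv_mul_cancel]
    have hc : n⁻¹ * x ∈ Subgroup.center (Matrix.SpecialLinearGroup (Fin 2) F) := (QuotientGroup.eq_one_iff _).mp h3
    have h4 := (mk_eq_one_iff hodd _).mp h3
    have h5 := Subgroup.mem_center_iff.mp hc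
    have h6 : x = n * (n⁻¹ * x) := by group
    have h7 : x * x = n * n := by
      calc x * x = (n * (n⁻¹ * x)) * (n * (n⁻¹ * x)) := by rw [← h6]
        _ = n * ((n⁻¹ * x) * n) * (n⁻¹ * x) := by group
        _ = n * (n * (n⁻¹ * x)) * (n⁻¹ * x) := by rw [h5 n]
        _ = n * n * ((n⁻¹ * x) * (n⁻¹ * x)) := by group
        _ = n * n := by rw [h4, mul_one]
    rw [h7]; exact N.mul_mem hn hn
  rw [eq_top_iff]
  intro M _
  haveI : NeZero (2 : F) := ⟨h2⟩
  have := sl_induction (MonoidHom.id _) N (fun b => by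
    have h1 := key (up (b / 2))
    rw [up_mul, add_halves] at h1
    exact h1) (fun c => by
    have h1 := key (lo (c / 2))
    rw [lo_mul, add_halves] at h1
    exact h1) M
  exact this

variable (p : ℕ) [hp : Fact p.Prime] [CharP F p] (lam : F)

/-- the Dickson alternative for the group generated by two transvections -/
theorem alternative (hp2 : p ≠ 2) (hlam : lam ≠ 0) (hgen : Subfield.closure ({lam} : Set F) = ⊤)
    (N : Subgroup (Matrix.SpecialLinearGroup (Fin 2) F)) (hX : lo (1 : F) ∈ N) (hY : up lam ∈ N) :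
    N = ⊤ ∨ (p = 3 ∧ Nat.card (N.map (π' F)) = 60 ∧ Nonempty (N.map (π' F) ≃* alternatingGroup (Fin 5))) := by
  classical
  haveI hfG : Finite (Matrix.ProjectiveSpecialLinearGroup (Fin 2) F) := inferInstanceAs (Finite (_ ⧸ _))
  have hodd := odd_of_ne_two (F := F) p hp2
  have h2 := two_ne_zero_of_odd hodd
  set NB := N.map (π' F) with hNB
  have hXB : π' F (lo 1) ∈ NB := ⟨_, hX, rfl⟩
  have hYB : π' F (up lam) ∈ NB := ⟨_, hY, rfl⟩
  have hXp : (π' F (lo 1)) ^ p = 1 := by
    rw [← map_pow, lo_pow, CharP.cast_eq_zero, zero_mul, lo_zero, map_one]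
  have hYp : (π' F (up lam)) ^ p = 1 := by
    rw [← map_pow, up_pow, CharP.cast_eq_zero, zero_mul, up_zero, map_one]
  have hX1 : π' F (lo 1) ≠ 1 := by
    intro h
    rw [mk_eq_one_iff hodd, lo_mul] at h
    have h3 := congrArg (fun x : Matrix.SpecialLinearGroup (Fin 2) F => (x : Matrix (Fin 2) (Fin 2) F) 1 0) h
    simp [coe_lo] at h3
    apply h2; rw [← h3]; norm_num
  have hXY : π' F (lo 1) * π' F (up lam) ≠ π' F (up lam) * π' F (lo 1) := by
    intro h
    have h1 : ιP F (π' F (up lam)) = aff 1 lam := by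
      have := pslHom_up (RingHom.id F) lam
      rw [pslHom, ProjGenLinGroup.map_id] at this
      exact this
    have h2 : ιP F (π' F (lo 1)) = low 1 := by
      have := pslHom_lo (RingHom.id F) (1 : F)
      rw [pslHom, ProjGenLinGroup.map_id] at this
      exact this
    have h3 := congrArg (fun x => ιP F x • (∞ : OnePoint F)) h
    simp only [map_mul, mul_smul] at h3
    rw [h1, h2, aff_smul_infty, low_smul_infty 1 one_ne_zero, aff_smul_coe] at h3
    have h4 : (1 : F)⁻¹ = ((1 : Fˣ) : F) * (1 : F)⁻¹ + lam := OnePoint.coe_injective h3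
    apply hlam
    simpa using h4.symm
  have hpd : p ∣ Nat.card NB := by
    have h1 : orderOf (⟨π' F (lo 1), hXB⟩ : NB) = p :=
      orderOf_eq_prime (Subtype.ext hXp) (fun h => hX1 (congrArg Subtype.val h))
    rw [← h1]; exact orderOf_dvd_natCard _
  have hι : Function.Injective (ιP F) := ProjectiveSpecialLinearGroup.toPGL_injective
  let σ : NB →* ProjGenLinGroup (Fin 2) F := (ιP F).comp NB.subtype
  have hσ : Function.Injective σ := hι.comp NB.subtype_injective
  rcases H98.Dickson.dickson_pgl p σ hσ with ⟨h, -⟩ | ⟨c, -, -, h, -⟩ | ⟨-, x₀, hfix, -⟩ | ⟨h, -⟩ | ⟨h, -⟩ | ⟨h1, h3, e⟩ |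
    ⟨P, K, h, hK, hcase⟩
  · exact absurd hpd h
  · exact absurd (h hpd) hp2
  · exfalso
    exact hXY (comm_of_fixed p x₀ (fun g hg => hfix ⟨g, hg⟩) hXB hYB hXp hYp)
  · exact absurd hpd h
  · exact absurd hpd h
  · right
    exact ⟨h1 hpd, h3, e⟩
  · left
    have hrange : σ.range.map (MulAut.conj h).toMonoidHom ≤
        (ProjGenLinGroup.map K.subtype : ProjGenLinGroup (Fin 2) K →* ProjGenLinGroup (Fin 2) F).range := by
      rcases hcase with hc | ⟨-, hc⟩
      · exact hc.le
      · rw [hc]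
        rintro _ ⟨x, rfl⟩
        exact ⟨_, rfl⟩
    have hle : (pslHom K.subtype).range ≤ σ.range.map (MulAut.conj h).toMonoidHom := by
      rcases hcase with hc | ⟨-, hc⟩
      · rw [hc]
        rintro _ ⟨x, rfl⟩
        exact ⟨_, rfl⟩
      · exact hc.ge
    have htr : ∀ n ∈ N, ((n : Matrix (Fin 2) (Fin 2) F).trace) ^ 2 ∈ K := by
      intro n hn
      apply tr_sq_mem K h n
      apply hrange
      exact ⟨ProjGenLinGroup.mk (Matrix.SpecialLinearGroup.toGL n), ⟨⟨π' F n, ⟨n, hn, rfl⟩⟩, rfl⟩, rfl⟩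
    have hYinv : up (-lam) ∈ N := by
      have : up (-lam) = (up lam)⁻¹ := by
        rw [eq_inv_iff_mul_eq_one, up_mul, neg_add_cancel, up_zero]
      rw [this]; exact N.inv_mem hY
    have ht1 : ∀ b : F, ((lo 1 * up b : Matrix.SpecialLinearGroup (Fin 2) F) : Matrix (Fin 2) (Fin 2) F).trace = 2 + b := by
      intro b
      rw [Matrix.SpecialLinearGroup.coe_mul, coe_lo, coe_up, Matrix.trace_fin_two]
      simp [Matrix.mul_apply, Fin.sum_univ_two]; ring
    have m1 := htr _ (N.mul_mem hX hY)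
    have m2 := htr _ (N.mul_mem hX hYinv)
    rw [ht1] at m1 m2
    have m3 := K.sub_mem m1 m2
    have m4 : (2 + lam) ^ 2 - (2 + -lam) ^ 2 = 8 * lam := by ring
    rw [m4] at m3
    have h8 : (8 : F) ≠ 0 := by
      have : (8 : F) = 2 * 2 * 2 := by norm_num
      rw [this]; exact mul_ne_zero (mul_ne_zero h2 h2) h2
    have h8K : (8 : F) ∈ K := by
      have : ((8 : ℕ) : F) ∈ K := natCast_mem K 8
      exact_mod_cast this
    have m5 : lam ∈ K := by
      have := K.mul_mem (K.inv_mem h8K) m3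
      rwa [inv_mul_cancel_left₀ h8] at this
    have hKtop : K = ⊤ := by
      rw [eq_top_iff, ← hgen, Subfield.closure_le]
      rintro _ rfl; exact m5
    have hKc : Nat.card K = Nat.card F := by
      rw [hKtop]; exact Nat.card_congr (Subfield.topEquiv (K := F)).toEquiv
    apply eq_top_of_map hodd
    rw [← hNB]
    apply Subgroup.eq_top_of_le_card
    have c1 : Nat.card (pslHom K.subtype).range ≤ Nat.card (σ.range.map (MulAut.conj h).toMonoidHom) := by
      haveI : Finite σ.range := Finite.of_surjective σ.rangeRestrict σ.rangeRestrict_surjective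
      haveI : Finite (σ.range.map (MulAut.conj h).toMonoidHom) :=
        Finite.of_surjective (fun x : σ.range => (⟨_, x.1, x.2, rfl⟩ : σ.range.map (MulAut.conj h).toMonoidHom)) (by
          rintro ⟨_, x, hx, rfl⟩; exact ⟨⟨x, hx⟩, rfl⟩)
      exact Subgroup.card_le_of_le hle
    have c2 : Nat.card (σ.range.map (MulAut.conj h).toMonoidHom) = Nat.card NB := by
      rw [Nat.card_congr (MonoidHom.ofInjective hσ).toEquiv]
      exact (Nat.card_congr (σ.range.equivMapOfInjective _ (MulAut.conj h).injective).toEquiv).symm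
    have c3 : Nat.card (pslHom K.subtype).range = Nat.card (Matrix.ProjectiveSpecialLinearGroup (Fin 2) K) :=
      (Nat.card_congr (MonoidHom.ofInjective (pslHom_injective K.subtype)).toEquiv).symm
    have c4 : Nat.card (Matrix.ProjectiveSpecialLinearGroup (Fin 2) K) =
        Nat.card (Matrix.ProjectiveSpecialLinearGroup (Fin 2) F) := by
      haveI : Finite K := inferInstance
      rw [card_G, card_G, hKc]
    rw [← c4, ← c3, ← c2]; exact c1

omit [Finite F] in
theorem entry2 (b : F) : ((((lo 1 * up b) ^ 2 : Matrix.SpecialLinearGroup (Fin 2) F)) : Matrix (Fin 2) (Fin 2) F) 1 0 = 2 + b := by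
  rw [Matrix.SpecialLinearGroup.coe_pow, Matrix.SpecialLinearGroup.coe_mul, coe_lo, coe_up]
  simp [pow_succ, Matrix.mul_apply, Fin.sum_univ_two]; ring

omit [Finite F] in
theorem entry3 (b : F) : ((((lo 1 * up b) ^ 3 : Matrix.SpecialLinearGroup (Fin 2) F)) : Matrix (Fin 2) (Fin 2) F) 1 0 =
    (2 + b) ^ 2 - 1 := by
  rw [Matrix.SpecialLinearGroup.coe_pow, Matrix.SpecialLinearGroup.coe_mul, coe_lo, coe_up]
  simp [pow_succ, Matrix.mul_apply, Fin.sum_univ_two]; ring

omit [Finite F] in
theorem entry5 (b : F) : ((((lo 1 * up b) ^ 5 : Matrix.SpecialLinearGroup (Fin 2) F)) : Matrix (Fin 2) (Fin 2) F) 1 0 =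
    (2 + b) ^ 4 - 3 * (2 + b) ^ 2 + 1 := by
  rw [Matrix.SpecialLinearGroup.coe_pow, Matrix.SpecialLinearGroup.coe_mul, coe_lo, coe_up]
  simp [pow_succ, Matrix.mul_apply, Fin.sum_univ_two]; ring

theorem entry_zero (hodd : Odd (Nat.card F)) (x : Matrix.SpecialLinearGroup (Fin 2) F) (h : π' F x = 1) :
    (x : Matrix (Fin 2) (Fin 2) F) 1 0 = 0 := by
  have h1 := (mk_eq_one_iff hodd x).mp h
  rcases H40.SL2Tori.sq_one_scalar (two_ne_zero_of_odd hodd) h1 with h2 | h2
  · rw [h2, Matrix.SpecialLinearGroup.coe_one]; simp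
  · rw [h2, Matrix.SpecialLinearGroup.coe_neg, Matrix.SpecialLinearGroup.coe_one]; simp

/-- finite fields generated by an element with `x^(p^k) = x` are small -/
theorem card_le_of_gen (k : ℕ) (hgen : Subfield.closure ({lam} : Set F) = ⊤) (h : lam ^ p ^ k = lam) (hk : 1 ≤ k) :
    (∀ x : F, x ^ p ^ k = x) ∧ Nat.card F ≤ p ^ k := by
  have h1 : ∀ x : F, x ^ p ^ k = x := by
    have h2 : (⊤ : Subfield F) ≤ RingHom.eqLocusField (iterateFrobenius F p k) (RingHom.id F) := by
      rw [← hgen, Subfield.closure_le]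
      intro y hy
      rw [Set.mem_singleton_iff.mp hy]
      show iterateFrobenius F p k lam = lam
      rw [iterateFrobenius_def]; exact h
    intro x
    have h3 := h2 (Subfield.mem_top x)
    have h4 : iterateFrobenius F p k x = x := h3
    rwa [iterateFrobenius_def] at h4
  refine ⟨h1, ?_⟩
  obtain ⟨g, hg⟩ := (inferInstance : IsCyclic Fˣ).exists_generator
  have h2 : orderOf g = Nat.card F - 1 := by
    rw [orderOf_eq_card_of_forall_mem_zpowers hg, Nat.card_units]
  have hpk : 1 < p ^ k := Nat.one_lt_pow (by omega) hp.out.one_lt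
  have h3 : g ^ (p ^ k - 1) = 1 := by
    have h4 := h1 g
    have h5 : g ^ (p ^ k) = g := Units.ext (by rw [Units.val_pow_eq_pow_val]; exact h4)
    have h6 : g ^ (p ^ k - 1) * g = 1 * g := by
      rw [← pow_succ, Nat.sub_add_cancel hpk.le, h5, one_mul]
    exact mul_right_cancel h6
  have h4 := Nat.le_of_dvd (by omega) (orderOf_dvd_of_pow_eq_one h3)
  omega

/-- in the `A₅` case -/
theorem a5_case [CharP F 3] (hlam : lam ≠ 0) (hgen : Subfield.closure ({lam} : Set F) = ⊤)
    (N : Subgroup (Matrix.SpecialLinearGroup (Fin 2) F)) (hX : lo (1 : F) ∈ N) (hY : up lam ∈ N)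
    (h60 : Nat.card (N.map (π' F)) = 60) (e : Nonempty (N.map (π' F) ≃* alternatingGroup (Fin 5))) :
    Nat.card F = 9 ∧ lam ^ 2 = -1 := by
  classical
  haveI hfG : Finite (Matrix.ProjectiveSpecialLinearGroup (Fin 2) F) := inferInstanceAs (Finite (_ ⧸ _))
  haveI : Fact (Nat.Prime 3) := ⟨Nat.prime_three⟩
  have hodd := odd_of_ne_two (F := F) 3 (by norm_num)
  have h2 := two_ne_zero_of_odd hodd
  have h3 : (3 : F) = 0 := by
    have := CharP.cast_eq_zero F 3
    exact_mod_cast this
  have hpoly : ∀ b : F, up b ∈ N → (2 + b = 0 ∨ (2 + b) ^ 2 - 1 = 0 ∨ (2 + b) ^ 4 - 3 * (2 + b) ^ 2 + 1 = 0) := by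
    intro b hb
    have hm : π' F (lo 1 * up b) ∈ N.map (π' F) := ⟨_, N.mul_mem hX hb, rfl⟩
    rcases order_A5 e hm with h | h | h
    · left
      have := entry_zero hodd ((lo 1 * up b) ^ 2) (by rw [map_pow]; exact orderOf_dvd_iff_pow_eq_one.mp h)
      rwa [entry2] at this
    · right; left
      have := entry_zero hodd ((lo 1 * up b) ^ 3) (by rw [map_pow]; exact orderOf_dvd_iff_pow_eq_one.mp h)
      rwa [entry3] at this
    · right; right
      have := entry_zero hodd ((lo 1 * up b) ^ 5) (by rw [map_pow]; exact orderOf_dvd_iff_pow_eq_one.mp h)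
      rwa [entry5] at this
  have hYinv : up (-lam) ∈ N := by
    have : up (-lam) = (up lam)⁻¹ := by
      rw [eq_inv_iff_mul_eq_one, up_mul, neg_add_cancel, up_zero]
    rw [this]; exact N.inv_mem hY
  -- lam is not in the prime field
  have hprime : lam ^ 3 ≠ lam := by
    intro h
    have h4 := (card_le_of_gen 3 lam 1 hgen (by rw [pow_one]; exact h) le_rfl).2
    have h5 := card_G (F := F)
    obtain ⟨n, hn1, hn⟩ := char_dvd (F := F) 3
    have h6 : 3 ^ 1 ≤ 3 ^ n := Nat.pow_le_pow_right (by norm_num) hn1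
    have h7 : Nat.card F = 3 := by omega
    rw [h7, show Nat.gcd 2 (3 - 1) = 2 from rfl] at h5
    have h8 := Subgroup.card_le_card_group (N.map (π' F))
    rw [h60, h5] at h8
    norm_num at h8
  have hnot : ∀ b : F, b ^ 3 ≠ b → ¬ (2 + b = 0) ∧ ¬ ((2 + b) ^ 2 - 1 = 0) := by
    intro b hb
    constructor
    · intro h
      apply hb
      have : b = 1 := by linear_combination h - h3
      rw [this, one_pow]
    · intro h
      apply hb
      have h4 : b * (b + 1) = 0 := by linear_combination h - (b + 1) * h3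
      rcases mul_eq_zero.mp h4 with h5 | h5
      · rw [h5]; norm_num
      · have : b = -1 := by linear_combination h5
        rw [this]; norm_num
  have hprime' : (-lam) ^ 3 ≠ -lam := by
    intro h; apply hprime
    have : -(lam ^ 3) = -lam := by rw [← h]; ring
    exact neg_injective this
  have k1 := ((hpoly lam hY).resolve_left (hnot lam hprime).1).resolve_left (hnot lam hprime).2
  have k2 := ((hpoly (-lam) hYinv).resolve_left (hnot _ hprime').1).resolve_left (hnot _ hprime').2
  have hsq : lam ^ 2 = -1 := by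
    have h4 : lam * (lam ^ 2 + 1) = 0 := by
      have h5 : (2 + lam) ^ 4 - 3 * (2 + lam) ^ 2 + 1 - ((2 + -lam) ^ 4 - 3 * (2 + -lam) ^ 2 + 1) =
          lam * (lam ^ 2 + 1) + 3 * (5 * lam ^ 3 + 13 * lam) := by ring
      rw [k1, k2, h3, zero_mul, add_zero, sub_zero] at h5
      exact h5.symm
    rcases mul_eq_zero.mp h4 with h5 | h5
    · exact absurd h5 hlam
    · linear_combination h5
  refine ⟨?_, hsq⟩
  have h9 : lam ^ 3 ^ 2 = lam := by
    have : lam ^ 3 ^ 2 = (lam ^ 2) ^ 4 * lam := by norm_num; ring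
    rw [this, hsq]; ring
  have h4 := (card_le_of_gen 3 lam 2 hgen h9 (by norm_num)).2
  obtain ⟨n, hn1, hn⟩ := char_dvd (F := F) 3
  have hn2 : n ≤ 2 := by
    by_contra hlt
    have : 3 ^ 3 ≤ 3 ^ n := Nat.pow_le_pow_right (by norm_num) (by omega)
    omega
  have hn3 : n ≠ 1 := by
    rintro rfl
    rw [pow_one] at hn
    apply hprime
    letI := Fintype.ofFinite F
    have := FiniteField.pow_card lam
    rwa [← Nat.card_eq_fintype_card, hn] at this
  have : n = 2 := by omega
  rw [hn, this]; norm_num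

omit [Finite F] in
theorem five_pow [CharP F 3] (hsq : lam ^ 2 = -1) : (lo 1 * up lam) ^ 5 = (-1 : Matrix.SpecialLinearGroup (Fin 2) F) := by
  have h3 : (3 : F) = 0 := by
    have := CharP.cast_eq_zero F 3
    exact_mod_cast this
  apply sl_ext
  rw [Matrix.SpecialLinearGroup.coe_pow, Matrix.SpecialLinearGroup.coe_mul, coe_lo, coe_up, Matrix.SpecialLinearGroup.coe_neg,
    Matrix.SpecialLinearGroup.coe_one]
  ext i j
  fin_cases i <;> fin_cases j
  · simp [pow_succ, Matrix.mul_apply, Fin.sum_univ_two]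
    linear_combination (14 + 7 * lam + lam ^ 2) * hsq + (-4 + lam) * h3
  · simp [pow_succ, Matrix.mul_apply, Fin.sum_univ_two]
    linear_combination (12 + 20 * lam + 8 * lam ^ 2 + lam ^ 3) * hsq + (-4 - 5 * lam) * h3
  · simp [pow_succ, Matrix.mul_apply, Fin.sum_univ_two]
    linear_combination (20 + 8 * lam + lam ^ 2) * hsq + (-5 + 4 * lam) * h3
  · simp [pow_succ, Matrix.mul_apply, Fin.sum_univ_two]
    linear_combination (26 + 27 * lam + 9 * lam ^ 2 + lam ^ 3) * hsq + (-8 - 4 * lam) * h3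

omit [Finite F] in
theorem two_pow [CharP F 3] (hsq : lam ^ 2 = -1) :
    (lo 1 * (lo 1 * up lam) ^ 2) ^ 2 = (-1 : Matrix.SpecialLinearGroup (Fin 2) F) := by
  have h3 : (3 : F) = 0 := by
    have := CharP.cast_eq_zero F 3
    exact_mod_cast this
  apply sl_ext
  rw [Matrix.SpecialLinearGroup.coe_pow, Matrix.SpecialLinearGroup.coe_mul, Matrix.SpecialLinearGroup.coe_pow,
    Matrix.SpecialLinearGroup.coe_mul, coe_lo, coe_up, Matrix.SpecialLinearGroup.coe_neg,
    Matrix.SpecialLinearGroup.coe_one]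
  ext i j
  fin_cases i <;> fin_cases j
  · simp [pow_succ, Matrix.mul_apply, Fin.sum_univ_two]
    linear_combination (8 + 2 * lam) * hsq + (-2 + 2 * lam) * h3
  · simp [pow_succ, Matrix.mul_apply, Fin.sum_univ_two]
    linear_combination (12 + 10 * lam + 2 * lam ^ 2) * hsq + (-4 - 2 * lam) * h3
  · simp [pow_succ, Matrix.mul_apply, Fin.sum_univ_two]
    linear_combination (18 + 4 * lam) * hsq + (-4 + 6 * lam) * h3
  · simp [pow_succ, Matrix.mul_apply, Fin.sum_univ_two]
    linear_combination (32 + 22 * lam + 4 * lam ^ 2) * hsq + (-10 - 2 * lam) * h3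

end main

end H98.TwoTransv
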